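import Mathlib
import Cfsg.Agent.Base
import Cfsg.Agent.Lib.Tab3.Uni

/-!
Maximal subgroups of `SL₅` and `SU₅` of geometric type: what membership of a class forces on elements.
-/

set_option autoImplicit false
set_option linter.style.haveILetI false

namespace H19.T5

open Matrix Cfsg Cfsg.Geo H10.Asch H11 Equiv
open H11.T3 (max_of card_cjS le_of_le_cjS cjS_inf le_cjS_inv le_cjS_of_inv)
open scoped commutatorElement

theorem max_cjS {G : Type*} [Group G] {K H : Subgroup G} (B : G) (h : IsMaximalIn K H) :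
    IsMaximalIn (cjS B K) (cjS B H) := by
  refine ⟨lt_of_le_not_ge (cjS_mono B h.1.le) fun e => h.1.not_ge ?_, fun M h1 h2 => ?_⟩
  · simpa only [cjS_inv_cjS] using cjS_mono B⁻¹ e
  · refine (h.2 _ (le_cjS_inv h1) (by simpa only [cjS_inv_cjS] using cjS_mono B⁻¹ h2)).imp (fun e => ?_) fun e => ?_ <;>
      rw [← e, cjS_cjS_inv]

theorem card_dvd_aut {G : Type*} [Group G] {A K : Subgroup G} (h : NrmS A K)
    (hc : ∀ a ∈ A, (∀ k ∈ K, a * k * a⁻¹ = k) → a = 1) : Nat.card A ∣ Nat.card (MulAut K) :=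
  Subgroup.card_dvd_of_injective (K.normalizerMonoidHom.comp (Subgroup.inclusion (nrmS_iff_le_normalizer.1 h)))
    ((injective_iff_map_eq_one _).2 fun a e => Subtype.ext (hc a a.2 fun k hk =>
      congrArg (fun φ : MulAut K => (φ ⟨k, hk⟩).1) e))

variable {F : Type*} [Field F]

/-- `5 × 5` matrices -/
abbrev M5 (F : Type*) := Matrix (Fin 5) (Fin 5) F

/-- the general linear group -/
abbrev G5 (F : Type*) [Field F] := GL (Fin 5) F

/-- the special linear group -/
abbrev S5 (F : Type*) [Field F] : Subgroup (G5 F) := specialLinear (Fin 5) F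

/-- the scalars -/
abbrev Z5 (F : Type*) [Field F] : Subgroup (G5 F) := scalars (Fin 5) F

variable {H M : Subgroup (G5 F)} {m n : M5 F} {k : Subfield F}

theorem same [Finite F] {B : G5 F} (e : M = cjS B H) (h : H ≤ M) : M ≤ H := by
  haveI : Finite (G5 F) := finite_GL
  subst e
  exact le_of_le_cjS h

theorem le_left {B : G5 F} {K : Subgroup (G5 F)} (e : M = cjS B (H ⊓ K)) : M ≤ cjS B H :=
  e.le.trans (cjS_mono B inf_le_left)

/-- the matrix `m` is an element of `H` -/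
def Hm (H : Subgroup (G5 F)) (m : M5 F) : Prop := ∃ g ∈ H, g.val = m

theorem Hm.mono (h : Hm H m) (hle : H ≤ M) : Hm M m := by
  obtain ⟨g, hg, e⟩ := h
  exact ⟨g, hle hg, e⟩

theorem Hm.mul (h : Hm H m) (h' : Hm H n) : Hm H (m * n) := by
  obtain ⟨g, hg, rfl⟩ := h
  obtain ⟨g', hg', rfl⟩ := h'
  exact ⟨_, H.mul_mem hg hg', rfl⟩

theorem Hm.of (hd : m.det ≠ 0) (h : ∀ g : G5 F, g.val = m → g ∈ H) : Hm H m :=
  ⟨GeneralLinearGroup.mkOfDetNeZero m hd, h _ rfl, rfl⟩

theorem Hm.mem' {g : G5 F} (h : Hm H g.val) : g ∈ H := by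
  obtain ⟨g', hg', e⟩ := h
  exact Units.ext e ▸ hg'

theorem Hm.inf {K : Subgroup (G5 F)} (h : Hm H m) (h' : Hm K m) : Hm (H ⊓ K) m := by
  obtain ⟨g, hg, rfl⟩ := h
  exact ⟨g, ⟨hg, h'.mem'⟩, rfl⟩

theorem Hm.comm {c : M5 F} (h : Hm H m) (h' : Hm H n) (e : m * n = c * (n * m)) : Hm ⁅H, H⁆ c := by
  obtain ⟨g, hg, rfl⟩ := h
  obtain ⟨g', hg', rfl⟩ := h'
  refine ⟨_, Subgroup.commutator_mem_commutator hg hg', ?_⟩
  rw [commutatorElement_def, mul_assoc, ← _root_.mul_inv_rev, Units.val_mul, Units.val_mul, e, ← Units.val_mul,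
    Units.mul_inv_cancel_right]

theorem Hm.mem (h : Hm H m) {W : Submodule F (Fin 5 → F)}
    (hW : ∀ h ∈ H, ∀ v ∈ W, (h : M5 F) *ᵥ v ∈ W) {v : Fin 5 → F} (hv : v ∈ W) : m *ᵥ v ∈ W := by
  obtain ⟨g, hg, rfl⟩ := h
  exact hW g hg v hv

theorem hm_S5 (hd : m.det = 1) : Hm (S5 F) m :=
  Hm.of (by simp [hd]) fun g hg => mem_specialLinear.2 (by rw [hg, hd])

theorem cjS_S5 (B : G5 F) : cjS B (S5 F) = S5 F := by
  haveI := specialLinear_normal (ι := Fin 5) (F := F)
  exact (nrmS_of_normal ⊤ _).cjS_eq trivial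

theorem det_cj (B : G5 F) (m : M5 F) : (cj B m).det = m.det := by
  rw [cj_apply, det_mul, det_mul, mul_right_comm, ← det_mul, Units.mul_inv, det_one, one_mul]

theorem pow_of_scalar {c : F} (hd : m.det = 1) (e : m = c • (1 : M5 F)) : c ^ 5 = 1 := by
  rw [e, det_smul, det_one, mul_one] at hd
  simpa using hd

theorem not_irr_of_le {W : Submodule F (Fin 5 → F)} (h1 : W ≠ ⊥) (h2 : W ≠ ⊤)
    (h : M ≤ subspaceStabilizer W) : ¬ Irr M := fun hI =>
  (hI W fun _ hg v hv => (mem_subspaceStabilizer.1 (h hg) v).1 hv).elim h1 h2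

theorem eq_top_of_single {W : Submodule F (Fin 5 → F)} (h : ∀ i, Pi.single i 1 ∈ W) : W = ⊤ :=
  eq_top_iff.2 fun v _ => by
    rw [pi_eq_sum_univ' v]
    exact W.sum_mem fun i _ => W.smul_mem _ (h i)

/-! ### Monomial matrices -/

/-- monomial matrices -/
def mo (d : Fin 5 → F) (σ : Perm (Fin 5)) : M5 F := Matrix.of fun i j => if i = σ j then d j else 0

variable {d e : Fin 5 → F} {σ τ : Perm (Fin 5)}

theorem mo_mul : mo d σ * mo e τ = mo (fun j => d (τ j) * e j) (σ * τ) := by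
  ext i j; simp [mo, mul_apply]; rfl

theorem mo_one : mo d 1 = diagonal d := by
  ext i j; simp only [mo, of_apply, Perm.one_apply, diagonal_apply]; split_ifs with h <;> simp [h]

theorem mo_one_one : mo (fun _ => (1 : F)) 1 = 1 := mo_one

theorem det_mo : (mo d σ).det = (Perm.sign σ : ℤ) * ∏ i, d i := by
  rw [show mo d σ = (diagonal d).submatrix σ.symm id by
    ext i j; simp only [mo, of_apply, submatrix_apply, id, diagonal_apply, symm_apply_eq]
    split_ifs with h <;> simp [h], det_permute, det_diagonal, Perm.sign_symm]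

theorem det_mo_ne (h : ∀ i, d i ≠ 0) : (mo d σ).det ≠ 0 := by
  rw [det_mo]
  refine mul_ne_zero ?_ (Finset.prod_ne_zero_iff.2 fun i _ => h i)
  rcases Int.units_eq_one_or (Perm.sign σ) with e | e <;> simp [e]

theorem mo_single (j : Fin 5) : mo d σ *ᵥ Pi.single j 1 = d j • Pi.single (σ j) 1 := by
  ext i; simp [mo, Pi.single_apply]

theorem mo_herm (f : F →+* F) : (mo d σ)ᵀ * (mo d σ).map f = diagonal fun i => d i * f (d i) := by
  ext i j
  simp only [mo, mul_apply, transpose_apply, map_apply, of_apply, diagonal_apply, ite_mul, zero_mul,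
    Finset.sum_ite_eq', Finset.mem_univ, if_true, EmbeddingLike.apply_eq_iff_eq]
  split_ifs with h <;> simp [h]

theorem mo_ne_smul {i : Fin 5} (h : σ i ≠ i) (hd : d i ≠ 0) (c : F) : mo d σ ≠ c • 1 := fun e =>
  hd (by simpa [mo, h] using congrFun (congrFun e (σ i)) i)

/-! ### Class 2 -/

/-- the coordinate lines -/
def fr (B : M5 F) (i : Fin 5) : Submodule F (Fin 5 → F) := F ∙ (B *ᵥ Pi.single i 1)

/-- the monomial group -/
def Mon (F : Type*) [Field F] : Subgroup (G5 F) := decompositionStabilizer (fr (1 : M5 F))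

theorem map_fr (g B : M5 F) (i : Fin 5) : (fr B i).map (toLin' g) = fr (g * B) i := by
  rw [fr, fr, Submodule.map_span, Set.image_singleton, toLin'_apply, mulVec_mulVec]

theorem fr_eq_iff (B : G5 F) {m n : M5 F} {i j : Fin 5} : fr (B.val * m) i = fr (B.val * n) j ↔ fr m i = fr n j := by
  refine ⟨fun h => ?_, fun h => by rw [← map_fr, h, map_fr]⟩
  have := congrArg (Submodule.map (toLin' (B⁻¹).val)) h
  rwa [map_fr, map_fr, ← mul_assoc, ← mul_assoc, Units.inv_mul, one_mul, one_mul] at this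

theorem stab_fr (B : G5 F) : decompositionStabilizer (fr B.val) = cjS B (Mon F) := by
  ext g
  rw [mem_cjS]
  refine exists_congr fun σ => forall_congr' fun i => ?_
  rw [map_fr, map_fr, ← fr_eq_iff B (n := 1), mul_one, mul_one, Units.val_mul, Units.val_mul, ← mul_assoc,
    ← mul_assoc, Units.mul_inv, one_mul]

theorem hm_Mon (h : ∀ i, d i ≠ 0) : Hm (Mon F) (mo d σ) :=
  Hm.of (det_mo_ne h) fun g hg => ⟨σ, fun j => by
    rw [map_fr, mul_one, fr, fr, hg, mo_single, one_mulVec, Submodule.span_singleton_smul_eq (IsUnit.mk0 _ (h j))]⟩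

theorem exists_fr {D : Fin 5 → Submodule F (Fin 5 → F)} (hD : IsMDecomposition 1 D) {v : Fin 5 → Fin 5 → F}
    (h1 : ∀ i, v i ∈ D i) (h2 : ∀ i, v i ≠ 0) : ∃ B : G5 F, B.val = (Matrix.of v)ᵀ ∧ D = fr B.val := by
  have e : ∀ i, (Matrix.of v)ᵀ *ᵥ Pi.single i 1 = v i := fun i => by ext j; simp
  have e' : ∀ i, D i = fr (Matrix.of v)ᵀ i := fun i => by
    rw [fr, e]
    refine (Submodule.eq_of_le_of_finrank_eq ((Submodule.span_singleton_le_iff_mem _ _).2 (h1 i)) ?_).symm
    rw [finrank_span_singleton (h2 i), hD.finrank_eq]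
  obtain ⟨B, hB⟩ := isUnit_of_im_eq_top (x := (Matrix.of v)ᵀ) (by
    rw [eq_top_iff, ← hD.iSup_eq_top, iSup_le_iff]
    intro i
    rw [e', fr, Submodule.span_singleton_le_iff_mem]
    exact mulVec_mem_im _ _)
  exact ⟨B, hB, funext fun i => by rw [hB, e']⟩

theorem nf2 {D : Fin 5 → Submodule F (Fin 5 → F)} (hD : IsMDecomposition 1 D) :
    ∃ B : G5 F, decompositionStabilizer D = cjS B (Mon F) := by
  choose v h1 h2 using fun i => (Submodule.ne_bot_iff _).1 (IsMDecomposition.ne_bot hD i)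
  obtain ⟨B, -, rfl⟩ := exists_fr hD h1 h2
  exact ⟨B, stab_fr B⟩

theorem isMDecomposition_fr (B : G5 F) : IsMDecomposition 1 (fr B.val) where
  two_le := by norm_num
  pos := one_pos
  finrank_eq i := by rw [fr, finrank_span_singleton (gl_mulVec_ne_zero B (by simp))]
  indep := by
    have := ((Pi.basisFun F (Fin 5)).linearIndependent.map' (toLin' B.val) (LinearMap.ker_eq_bot'.2 fun v hv =>
      by_contra fun h => gl_mulVec_ne_zero B h hv)).iSupIndep_span_singleton
    convert this using 2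
    rw [fr, Function.comp_apply, Pi.basisFun_apply, toLin'_apply]
  iSup_eq_top := eq_top_iff.2 fun v _ => by
    rw [← gl_mulVec_inv B v, pi_eq_sum_univ' (_ *ᵥ v), mulVec_sum]
    refine Submodule.sum_mem _ fun i _ => Submodule.mem_iSup_of_mem i ?_
    rw [mulVec_smul]
    exact Submodule.smul_mem _ _ (Submodule.mem_span_singleton_self _)

/-- the permutation action of a monomial group on its frame -/
theorem exists_pi {B : G5 F} (h : M ≤ cjS B (Mon F)) :
    ∃ π : M →* Perm (Fin 5), ∀ g, ∃ d, g.1.val = cj B (mo d (π g)) := by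
  let ι : M →* Mon F := ((MulAut.conj B⁻¹).toMonoidHom.comp M.subtype).codRestrict _ fun g => by
    simpa using mem_cjS.1 (h g.2)
  have hι : ∀ g : M, (ι g).1.val = cj B⁻¹ g.1.val := fun g => (cj_coe _ _).symm
  let π := (decompPerm (isMDecomposition_fr (1 : G5 F))).comp ι
  refine ⟨π, fun g => ⟨fun j => (ι g).1.val (π g j) j, ?_⟩⟩
  rw [← cj_cj_inv B g.1.val, ← hι]
  congr 1
  ext i j
  by_cases e : i = π g j
  · simp [mo, e]
  have := mulVec_mem_decompPerm (isMDecomposition_fr (1 : G5 F)) (ι g) (i := j) (v := Pi.single j 1)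
    (by rw [fr, Units.val_one, one_mulVec]; exact Submodule.mem_span_singleton_self _)
  change _ ∈ fr 1 (π g j) at this
  rw [fr, one_mulVec, Submodule.mem_span_singleton] at this
  obtain ⟨c, hc⟩ := this
  simpa [mo, e] using (congrFun hc i).symm

/-! ### Class 3 -/

section three

variable {K : Subalgebra F (M5 F)}

theorem fld_scalar (hK : IsFieldSubalgebra 5 K) (hm : m ∈ K) {c : F} (h : (m - c • 1).det = 0) :
    m = c • (1 : M5 F) := by
  by_contra hne
  obtain ⟨y, -, hy⟩ := hK.inv _ (K.sub_mem hm (K.smul_mem K.one_mem c)) (sub_ne_zero.2 hne)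
  have := congrArg det hy
  rw [det_mul, h, zero_mul, det_one] at this
  exact zero_ne_one this

theorem fld_cent (hK : IsFieldSubalgebra 5 K) (h : ∀ k ∈ K, m * k = k * m) : m ∈ K := by
  have hK' : IsFieldSubalgebra (Fintype.card (Fin 5)) K := hK
  have hv : (Pi.single 0 1 : Fin 5 → F) ≠ 0 := by simp
  obtain ⟨k, hk, e⟩ := IsFieldSubalgebra.exists_mulVec_eq hK' hv (m *ᵥ Pi.single 0 1)
  rwa [show m = k from ext_mulVec fun w => by
    obtain ⟨l, hl, rfl⟩ := IsFieldSubalgebra.exists_mulVec_eq hK' hv w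
    rw [mulVec_mulVec, h l hl, ← mulVec_mulVec, ← e, mulVec_mulVec, mulVec_mulVec, hK.comm _ hl _ hk]]

theorem pow_mem_fld [Finite F] (hK : IsFieldSubalgebra 5 K) {g : G5 F} (hg : g ∈ subalgebraNormalizer K) :
    (g ^ 5).val ∈ K := by
  letI := (isField_subalgebra hK.comm hK.inv).toField
  haveI : Finite K := Finite.of_injective _ Subtype.val_injective
  have h1 := nrm_subalgebraNormalizer K g hg
  have h2 := nrm_subalgebraNormalizer K g⁻¹ (inv_mem hg)
  let φ : K ≃ₐ[F] K := { cjSub K g h1 h2 with commutes' := fun c => Subtype.ext ((cj g).commutes c) }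
  have h3 : φ ^ 5 = 1 := by
    have := pow_card_eq_one' (x := φ)
    rwa [IsGalois.card_aut_eq_finrank, hK.finrank_eq] at this
  refine fld_cent hK fun k hk => ?_
  have := congrArg (fun ψ : K ≃ₐ[F] K => (ψ ⟨k, hk⟩ : M5 F)) h3
  change cj g (cj g (cj g (cj g (cj g k)))) = k at this
  rw [← cj_mul, ← cj_mul, ← cj_mul, ← cj_mul, cj_eq_iff] at this
  rwa [show g ^ 5 = g * g * g * g * g by simp only [pow_succ, pow_zero, one_mul]]

theorem fld_inv [Finite F] (hK : IsFieldSubalgebra 5 K) (hm : Hm (subalgebraNormalizer K) m) (h2 : m * m = 1) :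
    ∃ c : F, m = c • 1 := by
  obtain ⟨g, hg, rfl⟩ := hm
  have := pow_mem_fld hK hg
  rw [show g ^ 5 = g * g * (g * g) * g by simp only [pow_succ, pow_zero, one_mul, mul_assoc], show g * g = 1 from Units.ext h2, one_mul, one_mul] at this
  rcases IsFieldSubalgebra.mul_eq_zero hK (K.sub_mem this K.one_mem) (y := g.val + 1)
    (by rw [sub_mul, mul_add, h2, mul_one, one_mul, add_comm, sub_self]) with e | e
  exacts [⟨1, by simpa using sub_eq_zero.1 e⟩, ⟨-1, by simpa using eq_neg_of_add_eq_zero_left e⟩]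

end three

/-! ### Class 5 -/

theorem cjS_sub (B : G5 F) (k : Subfield F) (P : G5 F) :
    cjS B (subfieldSubgroup k P) = subfieldSubgroup k (B * P) := (cjS_mul B P _).symm

theorem le_sub {B : G5 F} {K : Subgroup (G5 F)} (e : M = cjS B (subfieldSubgroup k 1 ⊓ K)) :
    M ≤ subfieldSubgroup k (B * 1) := (le_left e).trans (cjS_sub B k 1).le

theorem hm_sub (hd : m.det ≠ 0) (h : ∀ i j, m i j ∈ k) : Hm (subfieldSubgroup k 1) m :=
  Hm.of hd fun g hg => mem_subfieldSubgroup_iff.2 ⟨1, one_ne_zero, fun i j => by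
    rw [inv_one, cj_one, one_mul, hg]; exact h i j⟩

theorem tr_sub {P : G5 F} (h : M ≤ subfieldSubgroup k P) (hm : Hm ⁅M, M⁆ m) : m.trace ∈ k := by
  obtain ⟨g, hg, rfl⟩ := hm
  have : ⁅M, M⁆ ≤ cjS P (GeneralLinearGroup.map k.subtype).range := by
    refine (Subgroup.commutator_mono h h).trans ((cjS_commutator P _ _).ge.trans (cjS_mono P ?_))
    refine Subgroup.commutator_le.2 fun a ha b hb => ?_
    obtain ⟨c, x, hx, rfl⟩ := mem_sup_scalars.1 ha
    obtain ⟨d, y, hy, rfl⟩ := mem_sup_scalars.1 hb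
    rw [commutator_sc_mul]
    exact commutator_le_self _ (Subgroup.commutator_mem_commutator hx hy)
  obtain ⟨_, ⟨x, rfl⟩, rfl⟩ := this hg
  change (P * _ * P⁻¹).val.trace ∈ k
  rw [← cj_coe, trace_cj]
  exact k.sum_mem fun i _ => (x.val i i).2

theorem sub_mul_eq (k : Subfield F) (P : G5 F) (c : Fˣ) (C : G5 k) :
    subfieldSubgroup k (P * (sc _ F c * GeneralLinearGroup.map k.subtype C)) = subfieldSubgroup k P := by
  have : cjS (sc _ F c * GeneralLinearGroup.map k.subtype C)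
      ((GeneralLinearGroup.map k.subtype).range ⊔ scalars (Fin 5) F) = _ :=
    (nrmS_self _).cjS_eq (mul_mem (Subgroup.mem_sup_right (sc_mem c)) (Subgroup.mem_sup_left ⟨C, rfl⟩))
  exact (cjS_mul P _ _).trans (congrArg (cjS P) this)

/-! ### Forms -/

theorem cjS_sim (σ : F →+* F) (G : M5 F) (C : G5 F) :
    similarityGroup (gform σ G) = cjS C (similarityGroup (gform σ (C.valᵀ * G * C.val.map σ))) := by
  ext g
  rw [mem_cjS]
  refine exists_congr fun c => ⟨fun h u v => ?_, fun h u v => ?_⟩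
  · simp only [← gform_mulVec, Units.val_mul, ← mulVec_mulVec, gl_mulVec_inv, h]
  · have := h ((C⁻¹).val *ᵥ u) ((C⁻¹).val *ᵥ v)
    simpa only [← gform_mulVec, Units.val_mul, ← mulVec_mulVec, gl_mulVec_inv] using this

theorem exists_sim {σ : F →+* F} {B : G5 F} (h : M ≤ cjS B (similarityGroup (gform σ 1))) :
    ∃ G : M5 F, IsUnit G ∧ M ≤ similarityGroup (gform σ G) :=
  ⟨_, isUnit_transpose_mul_map σ isUnit_one B⁻¹, by rwa [cjS_sim σ 1 B⁻¹, cjS_cjS_inv] at h⟩

theorem tr_sim {σ : F →+* F} {G : M5 F} (hG : IsUnit G) (h : M ≤ similarityGroup (gform σ G)) (hm : Hm ⁅M, M⁆ m)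
    (hn : m * n = 1) : σ m.trace = n.trace := by
  obtain ⟨g, hg, rfl⟩ := hm
  obtain ⟨G, rfl⟩ := hG
  have : ⁅M, M⁆ ≤ preserving (Units.coeHom _) (gform σ G.val) := by
    refine Subgroup.commutator_le.2 fun a ha b hb u v => ?_
    obtain ⟨c, hc⟩ := h ha
    obtain ⟨d, hd⟩ := h hb
    have h1 := hd (a.val *ᵥ ((a⁻¹).val *ᵥ ((b⁻¹).val *ᵥ u))) (a.val *ᵥ ((a⁻¹).val *ᵥ ((b⁻¹).val *ᵥ v)))
    rw [hc, gl_mulVec_inv, gl_mulVec_inv, gl_mulVec_inv, gl_mulVec_inv] at h1
    simp only [Units.coeHom_apply, commutatorElement_def, Units.val_mul, ← mulVec_mulVec]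
    rw [hc, hd, h1, mul_left_comm]
  have h1 : g.valᵀ * G.val * g.val.map σ = G.val := gform_inj fun u v => by rw [← gform_mulVec]; exact this hg u v
  have h2 : g.val.map σ = cj G⁻¹ nᵀ := by
    rw [cj_apply, inv_inv, ← h1]
    simp only [← mul_assoc]
    rw [mul_assoc _ _ g.valᵀ, ← transpose_mul, hn, transpose_one, mul_one, Units.inv_mul, one_mul]
  have := congrArg trace h2
  rwa [trace_cj, trace_transpose, ← AddMonoidHom.map_trace] at this

theorem mult_pow {σ : F →+* F} {G : M5 F} (hG : IsUnit G) (hd : m.det = 1) {c : F} (h : mᵀ * G * m.map σ = c • G) :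
    c ^ 5 = 1 := by
  have := congrArg det h
  rw [det_mul, det_mul, det_transpose, hd, ← RingHom.mapMatrix_apply, ← RingHom.map_det, hd, map_one, det_smul,
    one_mul, mul_one, Fintype.card_fin] at this
  exact (mul_eq_right₀ ((isUnit_iff_isUnit_det _).1 hG).ne_zero).1 this.symm

/-- groups preserving a bilinear form up to scalars -/
def ColO (M : Subgroup (G5 F)) : Prop :=
  (2 : F) ≠ 0 ∧ ∃ G : M5 F, IsUnit G ∧ M ≤ similarityGroup (gform (RingHom.id F) G)

theorem ColO.eig (h : ColO M) {g : G5 F} (hg : g ∈ M) (hd : g.val.det = 1) : ∃ c : F, (g.val - c • 1).det = 0 := by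
  obtain ⟨h2, G, hG, h⟩ := h
  obtain ⟨c, hc⟩ := mem_similarityGroup_gform.1 (h hg)
  have h5 := mult_pow hG hd hc
  change g.valᵀ * G * g.val = _ at hc
  refine ⟨c ^ 3, ?_⟩
  have h1 : g.valᵀ * G * (g.val - (c : F) ^ 3 • 1) = (-(c : F) ^ 3) • ((g.val - (c : F) ^ 3 • 1)ᵀ * G) := by
    rw [mul_sub, hc, transpose_sub, transpose_smul, transpose_one, sub_mul, smul_mul_assoc, mul_smul_comm,
      mul_one, one_mul]
    match_scalars
    · linear_combination -(c : F) * h5
    · ring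
  have h3 := congrArg det h1
  rw [det_mul, det_mul, det_smul, det_mul, det_transpose, det_transpose, hd, Fintype.card_fin] at h3
  refine mul_left_cancel₀ (mul_ne_zero h2 ((isUnit_iff_isUnit_det _).1 hG).ne_zero) ?_
  linear_combination h3 - G.det * (g.val - (c : F) ^ 3 • 1).det * ((c : F) ^ 10 + (c : F) ^ 5 + 1) * h5

theorem ColO.comm (h : ColO M) {x y : G5 F} (hx : x ∈ M) (hy : y ∈ M) {w : Fˣ} (e : x * y = sc _ F w * (y * x)) :
    w ^ 2 = 1 := by
  obtain ⟨-, G, hG, h⟩ := h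
  obtain ⟨c, hc⟩ := h hx
  obtain ⟨d, hd⟩ := h hy
  obtain ⟨u, hu⟩ := ((nondeg_gform_iff (σ := RingHom.id F)).2 hG (Pi.single 0 1) (by simp)).1
  have h1 := hc (y.val *ᵥ u) (y.val *ᵥ Pi.single 0 1)
  rw [hd, mulVec_mulVec, mulVec_mulVec, ← Units.val_mul, e, coe_sc_mul, smul_mulVec, smul_mulVec, gform_smul_left,
    gform_smul_right, Units.val_mul, ← mulVec_mulVec, ← mulVec_mulVec, hd, hc, RingHom.id_apply] at h1
  refine Units.ext (mul_right_cancel₀ (mul_ne_zero (mul_ne_zero c.ne_zero d.ne_zero) hu) ?_)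
  push_cast
  linear_combination h1

theorem exists_orth [Finite F] {σ : F →+* F} (hne : σ ≠ RingHom.id F) (hσ : ∀ a, σ (σ a) = a)
    {G : M5 F} (hG : IsUnit G) (hh : cT σ G = G) : ∃ C : G5 F, C.valᵀ * G * C.val.map σ = 1 := by
  let B : (Fin 5 → F) →ₛₗ[σ] (Fin 5 → F) →ₗ[F] F := LinearMap.mk₂'ₛₗ σ (RingHom.id F)
    (fun x y => gform σ G y x) (fun _ _ _ => gform_add_right _ _ _ _ _) (fun _ _ _ => gform_smul_right _ _ _ _ _)
    (fun _ _ _ => gform_add_left _ _ _ _ _) (fun _ _ _ => gform_smul_left _ _ _ _ _)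
  obtain ⟨b, hb⟩ := H28.exists_orthonormal_basis_herm hne hσ B
    (fun x y => by change σ (gform σ G y x) = gform σ G x y; rw [gform_swap hσ, hh])
    (fun x hx => by
      by_contra h0
      obtain ⟨y, hy⟩ := ((nondeg_gform_iff (σ := σ)).2 hG x h0).1
      exact hy (hx y))
  have e : Module.finrank F (Fin 5 → F) = 5 := by simp
  set C : M5 F := (Matrix.of fun i => b (Fin.cast e.symm i))ᵀ with hC
  have h1 : Cᵀ * G * C.map σ = 1 := by
    ext i j
    rw [← gform_single σ (Cᵀ * G * C.map σ), ← gform_mulVec, one_apply]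
    have e1 : ∀ i, C *ᵥ Pi.single i 1 = b (Fin.cast e.symm i) := fun i => by ext l; simp [hC]
    rw [e1, e1]
    refine (hb _ _).trans ?_
    simp only [Fin.cast_inj, eq_comm]
  exact ⟨GeneralLinearGroup.mkOfDetNeZero C fun e0 => by simpa [e0] using congrArg det h1, h1⟩

theorem nfU [Fintype F] {σ : F ≃+* F} {f : (Fin 5 → F) → (Fin 5 → F) → F} (hf : IsUnitaryForm σ f) :
    ∃ (q : ℕ) (_ : U.IsSq F q) (B : G5 F), similarityGroup f = cjS B (similarityGroup (gform (U.cj q) 1)) := by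
  have hne : (σ : F →+* F) ≠ RingHom.id F := fun e => hf.ne_refl (RingEquiv.ext fun x => DFunLike.congr_fun e x)
  obtain ⟨q, h1, h2⟩ := T3.invol_pow hne hf.involutive
  haveI : U.IsSq F q := ⟨by rw [← h1, Nat.card_eq_fintype_card]⟩
  have hs := isSesq_of_unitary hf
  obtain ⟨C, e⟩ := exists_orth hne hf.involutive (hs.isUnit_gram hf.nondegenerate) (by
    ext i j; exact (hf.herm _ _).symm)
  refine ⟨q, this, C, ?_⟩
  rw [hs.eq_gform, cjS_sim _ _ C, e, show (σ : F →+* F) = U.cj q from RingHom.ext h2]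

section su

variable [Fintype F] {q : ℕ} [U.IsSq F q]

/-- the special unitary group -/
abbrev SU5 (F : Type*) [Field F] (q : ℕ) : Subgroup (G5 F) := GU 5 F q ⊓ S5 F

theorem herm_eq : hermForm 5 F q = gform (U.cj q) 1 := by
  funext u v; simp [hermForm, gform, dotProduct, U.cj_apply]

theorem mem_GU {g : G5 F} : g ∈ GU 5 F q ↔ g.valᵀ * g.val.map (U.cj q) = 1 := by
  change (∀ u v, hermForm 5 F q (g.val *ᵥ u) (g.val *ᵥ v) = hermForm 5 F q u v) ↔ _
  simp only [herm_eq, gform_mulVec, mul_one]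
  exact ⟨gform_inj, fun h u v => by rw [h]⟩

theorem hm_GU (h : mᵀ * m.map (U.cj q) = 1) : Hm (GU 5 F q) m :=
  Hm.of (fun e => by simpa [e] using congrArg det h) fun g hg => mem_GU.2 (hg ▸ h)

theorem GU_le_sim : GU 5 F q ≤ similarityGroup (gform (U.cj q) 1) := fun g hg =>
  mem_similarityGroup_gform.2 ⟨1, by rw [mul_one, mem_GU.1 hg, Units.val_one, one_smul]⟩

omit [Fintype F] [U.IsSq F q] in
theorem cjS_SU {B : G5 F} (hB : B ∈ GU 5 F q) : cjS B (SU5 F q) = SU5 F q := by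
  rw [cjS_inf, cjS_S5, (nrmS_self _).cjS_eq hB]

theorem nf2u {D : Fin 5 → Submodule F (Fin 5 → F)} (hD : IsNondegenerateMDecomposition (hermForm 5 F q) 1 D) :
    ∃ B ∈ GU 5 F q, decompositionStabilizer D = cjS B (Mon F) := by
  have : ∀ i, ∃ v ∈ D i, hermForm 5 F q v v = 1 := fun i =>
    U.Nondeg.exists_norm (fun x hx h0 => (hD.nondegenerate i x hx h0).2) (hD.decomp.finrank_eq i).ge (map_one _)
  choose v h1 h2 using this
  obtain ⟨B, hB, rfl⟩ := exists_fr hD.decomp h1 fun i e => by simpa [e, U.form_zero_left] using h2 i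
  refine ⟨B, mem_GU.2 ?_, stab_fr B⟩
  ext i j
  have : hermForm 5 F q (v i) (v j) = if i = j then 1 else 0 := by
    split_ifs with e
    · rw [e, h2]
    · exact hD.orthogonal i j e _ (h1 i) _ (h1 j)
  simpa [hB, mul_apply, one_apply, U.form_def] using this

end su

/-! ### Orders -/

/-- the order of `M` modulo scalars divides `n` -/
def ColS (M : Subgroup (G5 F)) (n : ℕ) : Prop := ∃ z, z ∣ 5 ∧ z ∣ Nat.card F - 1 ∧ Nat.card M ∣ z * n

theorem ColS.dvd {n : ℕ} (h : ColS M n) : Nat.card M ∣ 5 * n := by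
  obtain ⟨z, h1, -, h2⟩ := h
  exact h2.trans (mul_dvd_mul_right h1 n)

theorem colS_of [Finite F] {P : Subgroup (G5 F)} (h : M ≤ S5 F) (hP : IsResidualCore M P) {S : Type*} [Group S]
    (e : (P ⧸ (Z5 F).subgroupOf P) ≃* S) : ColS M (Nat.card (MulAut S)) := by
  haveI := isCyclic_scalars (ι := Fin 5) (F := F)
  let π := QuotientGroup.mk' (Z5 F)
  have key : ∀ L : Subgroup (G5 F), Nonempty ((L ⧸ (Z5 F).subgroupOf L) ≃* L.map π) := fun L =>
    ⟨(QuotientGroup.quotientMulEquivOfEq (by ext; simp [π, Subgroup.mem_subgroupOf])).trans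
      ((QuotientGroup.quotientKerEquivRange (π.comp L.subtype)).trans (MulEquiv.subgroupCongr (by
        rw [MonoidHom.range_comp, Subgroup.range_subtype])))⟩
  obtain ⟨e1⟩ := key M
  obtain ⟨e2⟩ := key P
  let ι := (M.subtype.comp ((Z5 F).subgroupOf M).subtype).codRestrict (Z5 F) fun g => g.2
  have hι : Function.Injective ι := fun a b e => Subtype.ext (Subtype.ext (congrArg (fun x : Z5 F => x.1) e))
  refine ⟨Nat.card ((Z5 F).subgroupOf M), ?_, ?_, ?_⟩
  · haveI := isCyclic_of_injective ι hι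
    rw [← IsCyclic.exponent_eq_card]
    refine Monoid.exponent_dvd_of_forall_pow_eq_one fun g => Subtype.ext (Subtype.ext (Units.ext ?_))
    obtain ⟨c, hc⟩ := (mem_scalars_iff _).1 g.2
    change g.1.1.val ^ 5 = 1
    have := pow_of_scalar (mem_specialLinear.1 (h g.1.2)) hc
    change g.1.1.val = _ at hc
    rw [hc, smul_pow, this, one_pow, one_smul]
  · rw [← Nat.card_units]
    exact (Subgroup.card_dvd_of_injective ι hι).trans (Subgroup.card_range_dvd _)
  · rw [Subgroup.card_eq_card_quotient_mul_card_subgroup ((Z5 F).subgroupOf M), mul_comm, Nat.card_congr e1.toEquiv,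
      ← Nat.card_congr (MulAut.congr (e2.symm.trans e)).toEquiv]
    refine mul_dvd_mul_left _ (card_dvd_aut ?_ ?_)
    · rintro _ ⟨a, ha, rfl⟩ _ ⟨x, hx, rfl⟩
      exact ⟨_, hP.normal a ha x hx, rfl⟩
    · rintro _ ⟨a, ha, rfl⟩ hc
      refine (QuotientGroup.eq_one_iff a).2 (hP.centralizer_scalar a ha fun x hx => (QuotientGroup.eq_one_iff _).1 ?_)
      exact mul_inv_eq_one.2 (hc _ ⟨x, hx, rfl⟩)

end H19.T5
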