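import Mathlib
import Cfsg.Agent.Base

/-!
Elements normalising an extraspecial group of order `125`.
-/

set_option autoImplicit false

namespace H19.T5

/-- the plane over the field with five elements -/
abbrev V5 := ZMod 5 × ZMod 5

variable {G : Type*} [Group G] {x y z : G}

/-- `x ^ a * y ^ b` -/
def ee (x y : G) (u : V5) : G := x ^ u.1.val * y ^ u.2.val

theorem pow_val_add (hx : x ^ 5 = 1) (a b : ZMod 5) : x ^ (a + b).val = x ^ a.val * x ^ b.val := by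
  rw [ZMod.val_add, ← pow_eq_pow_mod _ hx, pow_add]

theorem ee_add (hc : Commute x y) (hx : x ^ 5 = 1) (hy : y ^ 5 = 1) (u v : V5) :
    ee x y (u + v) = ee x y u * ee x y v := by
  rw [ee, ee, ee, Prod.fst_add, Prod.snd_add, pow_val_add hx, pow_val_add hy, mul_assoc, mul_assoc,
    ← mul_assoc (x ^ v.1.val), (hc.pow_pow _ _).eq, mul_assoc]

theorem ee_zero : ee x y 0 = 1 := by simp [ee]

theorem ee_nsmul (hc : Commute x y) (hx : x ^ 5 = 1) (hy : y ^ 5 = 1) (n : ℕ) (u : V5) :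
    ee x y (n • u) = ee x y u ^ n := by
  induction n with
  | zero => simp [ee_zero]
  | succ n ih => rw [succ_nsmul, ee_add hc hx hy, ih, pow_succ]

theorem ee_10 : ee x y (1, 0) = x := by simp [ee, show (1 : ZMod 5).val = 1 from rfl]

theorem ee_01 : ee x y (0, 1) = y := by simp [ee, show (1 : ZMod 5).val = 1 from rfl]

theorem ee_40 : ee x y (4, 0) = x ^ 4 := by simp [ee]; rfl

theorem ee_04 : ee x y (0, 4) = y ^ 4 := by simp [ee]; rfl

theorem ee_nat (hx : x ^ 5 = 1) (hy : y ^ 5 = 1) (a b : ℕ) : ee x y ((a : ZMod 5), (b : ZMod 5)) = x ^ a * y ^ b := by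
  rw [ee, ZMod.val_natCast, ZMod.val_natCast, ← pow_eq_pow_mod _ hx, ← pow_eq_pow_mod _ hy]

/-- the additive map with given values on the standard basis -/
def lin (v w u : V5) : V5 := (u.1 * v.1 + u.2 * w.1, u.1 * v.2 + u.2 * w.2)

theorem lin_eq (v w u : V5) : lin v w u = u.1.val • v + u.2.val • w := by
  ext <;> simp [lin]

theorem conj_ee (hc : Commute x y) (hx : x ^ 5 = 1) (hy : y ^ 5 = 1) {g : G} {v w : V5}
    (h1 : g * x * g⁻¹ = ee x y v) (h2 : g * y * g⁻¹ = ee x y w) (n : ℕ) (u : V5) :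
    g ^ n * ee x y u * (g ^ n)⁻¹ = ee x y ((lin v w)^[n] u) := by
  induction n with
  | zero => simp
  | succ n ih =>
    rw [Function.iterate_succ_apply', lin_eq, ee_add hc hx hy, ee_nsmul hc hx hy, ee_nsmul hc hx hy, ← h1, ← h2,
      conj_pow, conj_pow, conj_mul, pow_succ', mul_inv_rev]
    change _ = g * ee x y _ * g⁻¹
    rw [← ih]; simp only [mul_assoc]

/-- generators of an extraspecial group of order `125` whose centraliser is the central subgroup `Z` -/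
structure Ex (Z : Subgroup G) (x y z : G) : Prop where
  cen : ∀ c ∈ Z, ∀ g, c * g = g * c
  mem : z ∈ Z
  rel : x * y = z * (y * x)
  x5 : x ^ 5 = 1
  y5 : y ^ 5 = 1
  ord : orderOf z = 5
  cent : ∀ g, g * x = x * g → g * y = y * g → g ∈ Z

/-- `g` normalises the group generated by `x`, `y` and `Z` -/
def Nz (Z : Subgroup G) (x y g : G) : Prop :=
  (∃ c ∈ Z, ∃ a b : ℕ, g * x * g⁻¹ = c * (x ^ a * y ^ b)) ∧ ∃ c ∈ Z, ∃ a b : ℕ, g * y * g⁻¹ = c * (x ^ a * y ^ b)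

theorem pow_pow (c : ∀ g, z * g = g * z) (h : x * y = z * (y * x)) (a b : ℕ) :
    x ^ a * y ^ b = z ^ (a * b) * (y ^ b * x ^ a) := by
  have h1 : ∀ b : ℕ, x * y ^ b = z ^ b * (y ^ b * x) := fun b => by
    induction b with
    | zero => simp
    | succ b ih =>
      rw [pow_succ y, ← mul_assoc, ih, mul_assoc, mul_assoc, h, ← mul_assoc (y ^ b), ← c, pow_succ z]
      simp only [mul_assoc]
  induction a with
  | zero => simp
  | succ a ih =>
    rw [pow_succ' x, mul_assoc, ih, ← mul_assoc, ((show Commute z x from c x).pow_left _).symm.eq, mul_assoc,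
      ← mul_assoc x, h1, add_mul, one_mul, pow_add]
    simp only [mul_assoc]

namespace Ex

variable {Z : Subgroup G} (h : Ex Z x y z)
include h

theorem pow_pow (a b : ℕ) : x ^ a * y ^ b = z ^ (a * b) * (y ^ b * x ^ a) := T5.pow_pow (h.cen z h.mem) h.rel a b

theorem form {g : G} (hg : g ∈ Subgroup.closure ({x, y} : Set G)) : ∃ c ∈ Z, ∃ a b : ℕ, g = c * (x ^ a * y ^ b) := by
  have mul : ∀ g g' : G, (∃ c ∈ Z, ∃ a b : ℕ, g = c * (x ^ a * y ^ b)) → (∃ c ∈ Z, ∃ a b : ℕ, g' = c * (x ^ a * y ^ b)) →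
      ∃ c ∈ Z, ∃ a b : ℕ, g * g' = c * (x ^ a * y ^ b) := by
    rintro _ _ ⟨s, hs, a, b, rfl⟩ ⟨t, ht, c, d, rfl⟩
    refine ⟨s * t * (z ^ (c * b))⁻¹, Z.mul_mem (Z.mul_mem hs ht) (Z.inv_mem (Z.pow_mem h.mem _)), a + c, b + d, ?_⟩
    have e : y ^ b * x ^ c = (z ^ (c * b))⁻¹ * (x ^ c * y ^ b) := by rw [h.pow_pow, inv_mul_cancel_left]
    rw [← mul_assoc (s * _), mul_assoc s, ← h.cen t ht, pow_add, pow_add]
    simp only [mul_assoc]
    rw [← mul_assoc (y ^ b), e, ← mul_assoc (z ^ _)⁻¹ (x ^ a), h.cen _ (Z.inv_mem (Z.pow_mem h.mem _)) (x ^ a)]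
    simp only [mul_assoc]
  induction hg using Subgroup.closure_induction'' with
  | mem g hg => rcases hg with rfl | rfl; exacts [⟨1, Z.one_mem, 1, 0, by simp⟩, ⟨1, Z.one_mem, 0, 1, by simp⟩]
  | inv_mem g hg =>
    rcases hg with rfl | rfl
    · exact ⟨1, Z.one_mem, 4, 0, by simpa using inv_eq_of_mul_eq_one_right ((pow_succ' _ 4).symm.trans h.x5)⟩
    · exact ⟨1, Z.one_mem, 0, 4, by simpa using inv_eq_of_mul_eq_one_right ((pow_succ' _ 4).symm.trans h.y5)⟩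
  | one => exact ⟨1, Z.one_mem, 0, 0, by simp⟩
  | mul g g' _ _ h1 h2 => exact mul _ _ h1 h2

variable [Z.Normal]

theorem comm : Commute (x : G ⧸ Z) (y : G ⧸ Z) := by
  change (x : G ⧸ Z) * y = y * x
  rw [← QuotientGroup.mk_mul, h.rel, QuotientGroup.mk_mul, (QuotientGroup.eq_one_iff z).2 h.mem, one_mul,
    QuotientGroup.mk_mul]

theorem qx5 : (x : G ⧸ Z) ^ 5 = 1 := by rw [← QuotientGroup.mk_pow, h.x5, QuotientGroup.mk_one]

theorem qy5 : (y : G ⧸ Z) ^ 5 = 1 := by rw [← QuotientGroup.mk_pow, h.y5, QuotientGroup.mk_one]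

theorem act {g : G} (hg : Nz Z x y g) : ∃ v w : V5, v.1 * w.2 = v.2 * w.1 + 1 ∧
    (g : G ⧸ Z) * x * (g : G ⧸ Z)⁻¹ = ee (x : G ⧸ Z) y v ∧ (g : G ⧸ Z) * y * (g : G ⧸ Z)⁻¹ = ee (x : G ⧸ Z) y w := by
  obtain ⟨⟨s, hs, a, b, h1⟩, t, ht, c, d, h2⟩ := hg
  refine ⟨(a, b), (c, d), ?_, ?_, ?_⟩
  · have h3 : g * x * g⁻¹ * (g * y * g⁻¹) = z * (g * y * g⁻¹ * (g * x * g⁻¹)) := by
      rw [conj_mul, conj_mul, h.rel, ← mul_assoc g, ← h.cen z h.mem]
      simp only [mul_assoc]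
    have e : ∀ a b c d : ℕ, ∀ s ∈ Z, ∀ t ∈ Z, z ^ (c * b) * (s * (x ^ a * y ^ b) * (t * (x ^ c * y ^ d))) =
        s * t * (x ^ (a + c) * y ^ (b + d)) := fun a b c d s hs t ht => by
      have c1 := h.cen _ (Z.pow_mem h.mem (c * b))
      calc _ = s * t * (x ^ a * (z ^ (c * b) * (y ^ b * x ^ c)) * y ^ d) := by
            rw [← mul_assoc (s * _), mul_assoc s, ← h.cen t ht, c1, c1]
            simp only [mul_assoc, ← c1 (y ^ d)]
        _ = _ := by rw [← h.pow_pow, pow_add, pow_add]; simp only [mul_assoc]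
    rw [h1, h2] at h3
    have h4 := e a b c d s hs t ht
    rw [h3, ← mul_assoc, h.cen s hs t, add_comm a, add_comm b, ← e c d a b t ht s hs, mul_left_inj, ← pow_succ,
      pow_eq_pow_iff_modEq, h.ord, ← ZMod.natCast_eq_natCast_iff] at h4
    push_cast at h4
    rw [← h4, mul_comm]
  · rw [ee_nat h.qx5 h.qy5, ← QuotientGroup.mk_inv, ← QuotientGroup.mk_mul, ← QuotientGroup.mk_mul, h1,
      QuotientGroup.mk_mul, (QuotientGroup.eq_one_iff s).2 hs, one_mul]; rfl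
  · rw [ee_nat h.qx5 h.qy5, ← QuotientGroup.mk_inv, ← QuotientGroup.mk_mul, ← QuotientGroup.mk_mul, h2,
      QuotientGroup.mk_mul, (QuotientGroup.eq_one_iff t).2 ht, one_mul]; rfl

theorem triv {g : G} (h1 : (g : G ⧸ Z) * x * (g : G ⧸ Z)⁻¹ = x) (h2 : (g : G ⧸ Z) * y * (g : G ⧸ Z)⁻¹ = y) :
    g ^ 5 ∈ Z := by
  have key : ∀ x : G, x ^ 5 = 1 → (g : G ⧸ Z) * x * (g : G ⧸ Z)⁻¹ = x → g ^ 5 * x = x * g ^ 5 := fun x hx e => by
    have h3 : x⁻¹ * (g * x * g⁻¹) ∈ Z := QuotientGroup.eq.1 e.symm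
    set c := x⁻¹ * (g * x * g⁻¹) with hc
    have h4 : g * x * g⁻¹ = x * c := by rw [hc, mul_inv_cancel_left]
    have h5 : c ^ 5 = 1 := by
      have := congrArg (· ^ 5) h4
      simp only [conj_pow, (show Commute x c from (h.cen c h3 x).symm).mul_pow, hx] at this
      simpa using this.symm
    have h6 : g * x = c * (x * g) := by rw [← mul_assoc, h.cen c h3, ← h4, inv_mul_cancel_right]
    simpa [h5] using T5.pow_pow (h.cen c h3) h6 5 1
  exact h.cent _ (key x h.x5 h1) (key y h.y5 h2)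

theorem pow300 {g : G} (hg : Nz Z x y g) : g ^ 300 ∈ Z := by
  obtain ⟨v, w, h0, h1, h2⟩ := h.act hg
  have key := (by decide +kernel : ∀ v w : V5, v.1 * w.2 = v.2 * w.1 + 1 →
    (lin v w)^[60] (1, 0) = (1, 0) ∧ (lin v w)^[60] (0, 1) = (0, 1)) v w h0
  have h3 := conj_ee h.comm h.qx5 h.qy5 h1 h2 60
  rw [show 300 = 60 * 5 from rfl, pow_mul]
  exact h.triv (by simpa only [key.1, ee_10, QuotientGroup.mk_pow] using h3 (1, 0))
    (by simpa only [key.2, ee_01, QuotientGroup.mk_pow] using h3 (0, 1))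

theorem invol {g : G} (hg : Nz Z x y g) (g2 : g ^ 2 = 1) (hZ : g ∉ Z) :
    (g : G ⧸ Z) * x * (g : G ⧸ Z)⁻¹ = (x : G ⧸ Z) ^ 4 ∧ (g : G ⧸ Z) * y * (g : G ⧸ Z)⁻¹ = (y : G ⧸ Z) ^ 4 := by
  obtain ⟨v, w, h0, h1, h2⟩ := h.act hg
  have h3 := conj_ee h.comm h.qx5 h.qy5 h1 h2
  have g5 : g ^ 5 = g := by rw [pow_succ, show 4 = 2 * 2 from rfl, pow_mul, g2, one_pow, one_mul]
  have q : ∀ n, (g : G ⧸ Z) ^ (2 * n + 1) = g := fun n => by
    rw [← QuotientGroup.mk_pow, pow_succ, pow_mul, g2, one_pow, one_mul]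
  rcases (by decide +kernel : ∀ v w : V5, v.1 * w.2 = v.2 * w.1 + 1 →
    ((lin v w)^[2 * 7 + 1] (1, 0) = (1, 0) ∧ (lin v w)^[2 * 7 + 1] (0, 1) = (0, 1)) ∨
    ((lin v w)^[2 * 7 + 1] (1, 0) = (4, 0) ∧ (lin v w)^[2 * 7 + 1] (0, 1) = (0, 4)) ∨ (lin v w)^[30] (1, 0) = (4, 0))
      v w h0 with key | key | key
  · exact absurd (g5 ▸ h.triv (by simpa only [key.1, ee_10, q] using h3 (2 * 7 + 1) (1, 0))
      (by simpa only [key.2, ee_01, q] using h3 (2 * 7 + 1) (0, 1))) hZ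
  · exact ⟨by simpa only [key.1, ee_10, ee_40, q] using h3 (2 * 7 + 1) (1, 0),
      by simpa only [key.2, ee_01, ee_04, q] using h3 (2 * 7 + 1) (0, 1)⟩
  · exfalso
    have h4 := h3 30 (1, 0)
    rw [key, ee_10, ee_40, ← QuotientGroup.mk_pow, show 30 = 2 * 15 from rfl, pow_mul, g2, one_pow,
      QuotientGroup.mk_one, one_mul, inv_one, mul_one, pow_succ', left_eq_mul, ← QuotientGroup.mk_pow,
      QuotientGroup.eq_one_iff] at h4
    have h5 := h.pow_pow 3 1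
    rw [h.cen _ h4, right_eq_mul] at h5
    simpa [h.ord] using orderOf_dvd_of_pow_eq_one h5

theorem four {j k : G} (hj : Nz Z x y j) (hk : Nz Z x y k) (j2 : j ^ 2 = 1) (k2 : k ^ 2 = 1)
    (jk : (j * k) ^ 2 = 1) : j ∈ Z ∨ k ∈ Z ∨ j * k ∈ Z := by
  by_contra hc
  push Not at hc
  obtain ⟨h1, h2⟩ := h.invol hj j2 hc.1
  obtain ⟨h3, h4⟩ := h.invol hk k2 hc.2.1
  have key : ∀ u : G ⧸ Z, u ^ 5 = 1 → (j : G ⧸ Z) * u * (j : G ⧸ Z)⁻¹ = u ^ 4 →
      (k : G ⧸ Z) * u * (k : G ⧸ Z)⁻¹ = u ^ 4 → ((j * k : G) : G ⧸ Z) * u * ((j * k : G) : G ⧸ Z)⁻¹ = u :=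
    fun u u3 e1 e2 => by
      rw [QuotientGroup.mk_mul, mul_inv_rev, ← mul_assoc, mul_assoc (j : G ⧸ Z), mul_assoc (j : G ⧸ Z), e2,
        ← conj_pow, e1, ← pow_mul, show 4 * 4 = 5 * 3 + 1 from rfl, pow_succ, pow_mul, u3, one_pow, one_mul]
  have := h.triv (key _ h.qx5 h1 h3) (key _ h.qy5 h2 h4)
  rw [pow_succ, show 4 = 2 * 2 from rfl, pow_mul, jk, one_pow, one_mul] at this
  exact hc.2.2 this

end Ex

end H19.T5
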