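import Mathlib
import Cfsg.Agent.Base
import Cfsg.Agent.Lib.Tab5.Basic
import Cfsg.Agent.Lib.Tab5.Ex

/-!
The extraspecial group of order `125` in `GL₅` and its normaliser.
-/

set_option autoImplicit false
set_option linter.style.haveILetI false

namespace H19.T5

open Matrix Cfsg Cfsg.Geo H10.Asch H11 Equiv
open scoped commutatorElement

theorem Ex.closure_eq {G : Type*} [Group G] {Z R : Subgroup G} {x y z : G} (h : Ex Z x y z) (hx : x ∈ R) (hy : y ∈ R)
    (h5 : ∀ r ∈ R, r ^ 5 = 1) (hz : ∀ c ∈ Z, c ^ 5 = 1 → ∃ n : ℕ, c = z ^ n)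
    (hx' : ∀ r ∈ R, ⁅x, r⁆ ∈ Z) (hy' : ∀ r ∈ R, ⁅y, r⁆ ∈ Z) : R = Subgroup.closure {x, y} := by
  have mx : x ∈ Subgroup.closure ({x, y} : Set G) := Subgroup.subset_closure (by simp)
  have my : y ∈ Subgroup.closure ({x, y} : Set G) := Subgroup.subset_closure (by simp)
  have z5 : z ^ 5 = 1 := h.ord ▸ pow_orderOf_eq_one z
  have c : ∀ n g, z ^ n * g = g * z ^ n := fun n => h.cen _ (Z.pow_mem h.mem n)
  refine le_antisymm (fun r hr => ?_) ((Subgroup.closure_le _).2 (by rintro _ (rfl | rfl) <;> assumption))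
  have key : ∀ s ∈ R, ⁅s, r⁆ ∈ Z → ∃ n : ℕ, s * r = z ^ n * (r * s) := fun s hs e => by
    obtain ⟨n, hn⟩ := hz _ e (h5 _ (mul_mem (mul_mem (mul_mem hs hr) (inv_mem hs)) (inv_mem hr)))
    exact ⟨n, by rw [← hn, commutatorElement_def]; group⟩
  obtain ⟨n, hn⟩ := key x hx (hx' r hr)
  obtain ⟨m, hm⟩ := key y hy (hy' r hr)
  have e1 := h.pow_pow 1 (4 * n)
  have e2 := h.pow_pow m 1
  rw [pow_one, one_mul] at e1
  rw [pow_one, mul_one] at e2
  obtain ⟨l, hl⟩ := hz _ (h.cent (r * y ^ (4 * n) * x ^ m) (Eq.symm (by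
    calc _ = x * r * y ^ (4 * n) * x ^ m := by group
      _ = z ^ n * (r * (x * y ^ (4 * n))) * x ^ m := by rw [hn]; group
      _ = z ^ n * (r * z ^ (4 * n)) * y ^ (4 * n) * x ^ m * x := by rw [e1]; group
      _ = (z ^ 5) ^ n * (r * y ^ (4 * n) * x ^ m * x) := by rw [← c]; group
      _ = _ := by rw [z5, one_pow, one_mul])) (by
    calc _ = r * y ^ (4 * n) * (x ^ m * y) := by group
      _ = r * y ^ (4 * n) * z ^ m * y * x ^ m := by rw [e2]; group
      _ = z ^ m * (r * y) * y ^ (4 * n) * x ^ m := by rw [← c]; group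
      _ = _ := by rw [← hm]; group)) (h5 _ (mul_mem (mul_mem hr (pow_mem hy _)) (pow_mem hx _)))
  rw [show r = z ^ l * (x ^ m)⁻¹ * (y ^ (4 * n))⁻¹ by rw [← hl]; group, show z = x * y * (y * x)⁻¹ by rw [h.rel]; group]
  exact mul_mem (mul_mem (pow_mem (mul_mem (mul_mem mx my) (inv_mem (mul_mem my mx))) _) (inv_mem (pow_mem mx _)))
    (inv_mem (pow_mem my _))

variable {F : Type*} [Field F] {H M R : Subgroup (G5 F)} {w : F} {m : M5 F} {d : Fin 5 → F} {σ : Perm (Fin 5)}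

theorem mul_mo (i j : Fin 5) : (m * mo d σ) i j = m i (σ j) * d j := by simp [mo, mul_apply]

theorem mo_mul_apply (i j : Fin 5) : (mo d σ * m) (σ i) j = d i * m i j := by simp [mo, mul_apply]

theorem smul_mo (c : F) : c • mo d σ = mo (fun j => c * d j) σ := by ext; simp [mo]

theorem mo_pow (n : ℕ) : mo (fun _ => (1 : F)) σ ^ n = mo (fun _ => 1) (σ ^ n) := by
  induction n with
  | zero => rw [pow_zero, pow_zero, mo_one_one]
  | succ n ih => rw [pow_succ, ih, mo_mul, pow_succ, one_mul]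

theorem irr_of {W : Submodule F (Fin 5 → F)} (h1 : ∀ v ∈ W, ∀ i, v i ≠ 0 → Pi.single i 1 ∈ W)
    (h2 : ∀ v ∈ W, mo (fun _ => 1) (finRotate 5) *ᵥ v ∈ W) : W = ⊥ ∨ W = ⊤ := by
  refine or_iff_not_imp_left.2 fun h0 => ?_
  obtain ⟨v, hv, hv0⟩ := (Submodule.ne_bot_iff _).1 h0
  obtain ⟨i, hi⟩ := Function.ne_iff.1 hv0
  have key : ∀ n, Pi.single ((finRotate 5 ^ n) i) 1 ∈ W := fun n => by
    induction n with
    | zero => exact h1 v hv i hi
    | succ n ih => simpa only [mo_single, one_smul, pow_succ', Perm.mul_apply] using h2 _ ih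
  refine eq_top_of_single fun j => ?_
  obtain ⟨n, rfl⟩ := (by decide : ∀ i j : Fin 5, ∃ n : Fin 5, (finRotate 5 ^ n.val) i = j) i j
  exact key n

theorem step_diag {W : Submodule F (Fin 5 → F)} (h : ∀ v ∈ W, diagonal d *ᵥ v ∈ W) (c : F) {v : Fin 5 → F}
    (hv : v ∈ W) : (fun i => (d i - c) * v i) ∈ W := by
  convert W.sub_mem (h v hv) (W.smul_mem c hv) using 1
  ext i; simp [mulVec_diagonal, sub_mul]

/-- the diagonal generator -/
def dX (w : F) : M5 F := mo (fun i => w ^ i.val) 1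

/-- the cyclic permutation matrix -/
def cyc (F : Type*) [Field F] : M5 F := mo (fun _ => 1) (finRotate 5)

theorem dX_pow (w : F) (a : ℕ) : dX w ^ a = dX (w ^ a) := by
  rw [dX, dX, mo_one, mo_one, diagonal_pow]
  congr 1; ext i; simp [← pow_mul, mul_comm]

theorem dX_five (h : w ^ 5 = 1) : dX w ^ 5 = 1 := by rw [dX_pow, h]; simp [dX, mo_one_one]

theorem cyc_five : cyc F ^ 5 = 1 := by rw [cyc, mo_pow, show finRotate 5 ^ 5 = 1 by decide, mo_one_one]

theorem dX_cyc (h : w ^ 5 = 1) : dX w * cyc F = w • (cyc F * dX w) := by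
  rw [dX, cyc, mo_mul, mo_mul, smul_mo]
  congr 1; ext i; fin_cases i <;> simp <;> first | ring1 | linear_combination -h

theorem det_dX (h : w ^ 5 = 1) : (dX w).det = 1 := by
  simp [dX, det_mo, Fin.prod_univ_five]; linear_combination (w ^ 5 + 1) * h

theorem det_cyc : (cyc F).det = 1 := by simp [cyc, det_mo]

theorem irr_dc (h : IsPrimitiveRoot w 5) {W : Submodule F (Fin 5 → F)} (h1 : ∀ v ∈ W, dX w *ᵥ v ∈ W)
    (h2 : ∀ v ∈ W, cyc F *ᵥ v ∈ W) : W = ⊥ ∨ W = ⊤ := by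
  refine irr_of (fun v hv i hi => ?_) h2
  rw [dX, mo_one] at h1
  have key : ∀ s : Finset (Fin 5), (fun l : Fin 5 => (∏ j ∈ s, (w ^ l.val - w ^ j.val)) * v l) ∈ W := fun s => by
    induction s using Finset.induction_on with
    | empty => simpa using hv
    | insert j s hj ih => simpa only [Finset.prod_insert hj, mul_assoc] using step_diag h1 (w ^ j.val) ih
  have h0 : ∏ j ∈ Finset.univ.erase i, (w ^ i.val - w ^ j.val) ≠ 0 := Finset.prod_ne_zero_iff.2 fun j hj =>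
    sub_ne_zero.2 fun e => Finset.ne_of_mem_erase hj (Fin.ext (h.pow_inj i.2 j.2 e)).symm
  convert W.smul_mem _⁻¹ (key (Finset.univ.erase i)) using 1
  swap
  · exact (∏ j ∈ Finset.univ.erase i, (w ^ i.val - w ^ j.val)) * v i
  ext l
  by_cases e : l = i
  · subst e; simp only [Pi.single_eq_same, Pi.smul_apply, smul_eq_mul]; rw [inv_mul_cancel₀ (mul_ne_zero h0 hi)]
  · rw [Pi.smul_apply, Finset.prod_eq_zero (f := fun j : Fin 5 => w ^ l.val - w ^ j.val)
      (Finset.mem_erase.2 ⟨e, Finset.mem_univ _⟩) (sub_self _)]; simp [e]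

theorem cent_dc (h : IsPrimitiveRoot w 5) (h1 : m * dX w = dX w * m) (h2 : m * cyc F = cyc F * m) :
    m = m 0 0 • 1 := by
  have e1 : ∀ i j, i ≠ j → m i j = 0 := fun i j e => by
    have := congrFun (congrFun h1 i) j
    rw [dX, mul_mo, mo_one, diagonal_mul, Perm.one_apply, mul_comm] at this
    exact (mul_eq_mul_right_iff.1 this).resolve_left fun e' => e (Fin.ext (h.pow_inj j.2 i.2 e')).symm
  have e2 : ∀ j, m (finRotate 5 j) (finRotate 5 j) = m j j := fun j => by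
    simpa only [cyc, mul_mo, mo_mul_apply, mul_one, one_mul] using congrFun (congrFun h2 (finRotate 5 j)) j
  have e3 : m 1 1 = m 0 0 := e2 0
  have e4 : m 2 2 = m 1 1 := e2 1
  have e5 : m 3 3 = m 2 2 := e2 2
  have e6 : m 4 4 = m 3 3 := e2 3
  ext i j
  by_cases e : i = j
  · subst e; fin_cases i <;> simp [e3, e4, e5, e6]
  · simp [e, e1 i j e]

theorem ex_of (h : IsPrimitiveRoot w 5) {x y B : G5 F} (hx : cj B (dX w) = x.val) (hy : cj B (cyc F) = y.val) :
    Ex (Z5 F) x y (sc _ F (Units.mk0 w (h.ne_zero (by norm_num)))) where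
  cen _ hc := comm_of_mem_scalars hc
  mem := sc_mem _
  rel := Units.ext (by
    rw [coe_sc_mul, Units.val_mul, Units.val_mul, ← hx, ← hy, ← map_mul, dX_cyc h.pow_eq_one, map_smul, map_mul]; rfl)
  x5 := Units.ext (by rw [Units.val_pow_eq_pow_val, ← hx, ← map_pow, dX_five h.pow_eq_one, map_one]; rfl)
  y5 := Units.ext (by rw [Units.val_pow_eq_pow_val, ← hy, ← map_pow, cyc_five, map_one]; rfl)
  ord := by rw [orderOf_injective _ sc_injective, ← orderOf_units]; exact h.eq_orderOf.symm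
  cent g h1 h2 := by
    have key : ∀ {x : G5 F} {m : M5 F}, cj B m = x.val → g * x = x * g → cj B⁻¹ g.val * m = m * cj B⁻¹ g.val :=
      fun {x m} e h => (cj B).injective (by
        rw [map_mul, map_mul, cj_cj_inv, e, ← Units.val_mul, h, Units.val_mul])
    refine mem_scalars_of_eq_smul (c := cj B⁻¹ g.val 0 0) ?_
    conv_lhs => rw [← cj_cj_inv B g.val, cent_dc h (key hx h1) (key hy h2), map_smul, map_one]

theorem nf6 (h : IsPrimitiveRoot w 5) {x y : G5 F} (x5 : x ^ 5 = 1) (y5 : y ^ 5 = 1)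
    (e : x.val * y.val = w • (y.val * x.val)) : ∃ B : G5 F, cj B (dX w) = x.val ∧ cj B (cyc F) = y.val := by
  obtain ⟨a, -, ha⟩ : ∃ a ∈ Finset.range 5, (x.val - w ^ a • 1).det = 0 := by
    let φ : Polynomial F →* F := detMonoidHom.comp (Polynomial.aeval x.val : Polynomial F →ₐ[F] M5 F).toRingHom.toMonoidHom
    have e : ∀ c n, φ (Polynomial.X ^ n - Polynomial.C c) = (x.val ^ n - c • 1).det := fun c n => by
      simp [φ, Algebra.algebraMap_eq_smul_one]
    have := congrArg φ (X_pow_sub_C_eq_prod h (by norm_num) (one_pow 5))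
    rw [map_prod, e, ← Units.val_pow_eq_pow_val, x5, Units.val_one, one_smul, sub_self, det_zero, eq_comm,
      Finset.prod_eq_zero_iff] at this
    simpa only [← pow_one x.val ▸ e _ 1, pow_one, mul_one] using this
  obtain ⟨u, hu, eu⟩ := exists_mulVec_eq_zero_iff.2 ha
  rw [sub_mulVec, smul_mulVec, one_mulVec, sub_eq_zero] at eu
  have step : ∀ n : ℕ, x.val *ᵥ ((y ^ n).val *ᵥ u) = w ^ (a + n) • ((y ^ n).val *ᵥ u) := fun n => by
    induction n with
    | zero => simpa using eu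
    | succ n ih =>
      rw [pow_succ', Units.val_mul, ← mulVec_mulVec, mulVec_mulVec _ x.val, e, smul_mulVec, ← mulVec_mulVec, ih,
        mulVec_smul, smul_smul, ← add_assoc, pow_succ']
  set P : M5 F := (Matrix.of fun j : Fin 5 => (y ^ (4 * a + j.val)).val *ᵥ u)ᵀ with hP
  have eP : ∀ j, P *ᵥ Pi.single j 1 = (y ^ (4 * a + j.val)).val *ᵥ u := fun j => by ext; simp [hP]
  have ext : ∀ {m n : M5 F}, (∀ j, m *ᵥ Pi.single j 1 = n *ᵥ Pi.single j 1) → m = n := fun h => by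
    ext i j; simpa using congrFun (h j) i
  have hX : P * dX w = x.val * P := ext fun j => by
    rw [← mulVec_mulVec, ← mulVec_mulVec, dX, mo_single, mulVec_smul, Perm.one_apply, eP, step, ← add_assoc,
      show a + 4 * a = 5 * a by ring, pow_add w, pow_mul w, h.pow_eq_one, one_pow, one_mul]
  have hY : P * cyc F = y.val * P := ext fun j => by
    rw [← mulVec_mulVec, ← mulVec_mulVec, cyc, mo_single, one_smul, eP, eP, mulVec_mulVec, ← Units.val_mul, ← pow_succ',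
      add_assoc, pow_add, pow_add, pow_eq_pow_mod (j.val + 1) y5]
    fin_cases j <;> rfl
  have hd : P.det ≠ 0 := fun h0 => by
    obtain ⟨c, hc, ec⟩ := exists_mulVec_eq_zero_iff.2 h0
    rcases irr_dc h (W := LinearMap.ker (toLin' P))
      (fun u (hu : P *ᵥ u = 0) => show P *ᵥ (dX w *ᵥ u) = 0 by
        rw [mulVec_mulVec, hX, ← mulVec_mulVec, hu, mulVec_zero])
      (fun u (hu : P *ᵥ u = 0) => show P *ᵥ (cyc F *ᵥ u) = 0 by
        rw [mulVec_mulVec, hY, ← mulVec_mulVec, hu, mulVec_zero]) with h1 | h1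
    · exact hc ((Submodule.eq_bot_iff _).1 h1 c ec)
    · exact gl_mulVec_ne_zero _ hu ((eP 0).symm.trans (h1.ge (Submodule.mem_top (x := Pi.single 0 1))))
  exact ⟨GeneralLinearGroup.mkOfDetNeZero P hd, (cj_eq_iff _ _ _).2 hX, (cj_eq_iff _ _ _).2 hY⟩

theorem pow_five (h : IsSymplecticTypeGroup 5 R) : ∀ r ∈ R, r ^ 5 = 1 := fun r hr => by
  have := Monoid.pow_exponent_eq_one (⟨r, hr⟩ : R)
  rw [h.exponent_eq] at this
  exact congrArg Subtype.val this

theorem five_of_smul {g : G5 F} {c : F} (h : g ^ 5 = 1) (e : g.val = c • 1) : c ^ 5 = 1 := by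
  have := congrArg Units.val h
  rw [Units.val_pow_eq_pow_val, e, smul_pow, one_pow] at this
  simpa using congrFun (congrFun this 0) 0

theorem exists_xy [Finite F] (h : IsSymplecticTypeGroup 5 R) (hi : ActsAbsolutelyIrreducibly (matrixSet R))
    (hz : Nat.card (Subgroup.center R) = 5) : ∃ w : F, IsPrimitiveRoot w 5 ∧ ∃ x ∈ R, ∃ y ∈ R,
      x.val * y.val = w • (y.val * x.val) ∧ (∀ r ∈ R, ⁅x, r⁆ ∈ Z5 F) ∧ ∀ r ∈ R, ⁅y, r⁆ ∈ Z5 F := by
  haveI : Finite (G5 F) := finite_GL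
  haveI : Fact (Nat.Prime 5) := ⟨by norm_num⟩
  have hc : ∀ x : R, x ∈ Subgroup.center R ↔ x.1 ∈ Z5 F := fun x => ⟨fun h => by
    obtain ⟨c, hc⟩ := hi.2 x.1.val (by
      rintro _ ⟨g, hg, rfl⟩
      exact congrArg (fun z : R => z.1.val) (Subgroup.mem_center_iff.1 h ⟨g, hg⟩).symm)
    exact mem_scalars_of_eq_smul hc, fun h => Subgroup.mem_center_iff.2 fun g =>
      Subtype.ext (comm_of_mem_scalars h _).symm⟩
  have u2 : ∀ y : R, y ∈ Subgroup.upperCentralSeries R 2 ↔ ∀ r ∈ R, ⁅y.1, r⁆ ∈ Z5 F := fun y => by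
    rw [Subgroup.mem_upperCentralSeries_succ_iff, Subgroup.upperCentralSeries_one]
    exact ⟨fun k r hr => (hc _).1 (k ⟨r, hr⟩), fun k r => (hc _).2 (k r r.2)⟩
  let A := Subgroup.upperCentralSeries R 2 ⊓ Subgroup.centralizer (Subgroup.upperCentralSeries R 2 : Set R)
  have hA := h.cyclic_of_characteristic A inferInstance ⟨⟨fun a b => Subtype.ext (b.2.2 a a.2.1)⟩⟩
  have e : Subgroup.center R = A := Subgroup.eq_of_le_of_card_ge (le_inf (Subgroup.upperCentralSeries_one R ▸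
    Subgroup.upperCentralSeries_mono R one_le_two) (Subgroup.center_le_centralizer _)) (by
      rw [hz, ← IsCyclic.exponent_eq_card]
      exact Nat.le_of_dvd (by norm_num) (Monoid.exponent_dvd_of_forall_pow_eq_one fun a =>
        Subtype.ext (Subtype.ext (pow_five h _ a.1.2))))
  haveI : Nontrivial (R ⧸ Subgroup.center R) := QuotientGroup.nontrivial_iff.2 fun e =>
    not_le_scalars (irr_iff.2 hi.1) fun r hr => (hc ⟨r, hr⟩).1 (e.ge trivial)
  haveI := (h.pGroup.to_quotient (Subgroup.center R)).center_nontrivial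
  obtain ⟨⟨x, hx⟩, hx1⟩ := exists_ne (1 : Subgroup.center (R ⧸ Subgroup.center R))
  obtain ⟨x, rfl⟩ := QuotientGroup.mk_surjective x
  have h1 : x ∈ Subgroup.upperCentralSeries R 2 := (u2 x).2 fun r hr => (hc ⁅x, ⟨r, hr⟩⁆).1
    ((QuotientGroup.eq_one_iff _).1 (by
      rw [← QuotientGroup.mk'_apply, map_commutatorElement, commutatorElement_eq_one_iff_mul_comm]
      exact (Subgroup.mem_center_iff.1 hx _).symm))
  obtain ⟨y, hy, hxy⟩ : ∃ y ∈ Subgroup.upperCentralSeries R 2, y * x ≠ x * y := by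
    by_contra! hc'
    exact hx1 (Subtype.ext ((QuotientGroup.eq_one_iff x).2 (e.ge ⟨h1, hc'⟩)))
  obtain ⟨w, hw⟩ := (mem_scalars_iff _).1 ((u2 x).1 h1 y y.2)
  have e1 : x.1.val * y.1.val = (w : F) • (y.1.val * x.1.val) := by
    simpa [commutatorElement_def, mul_assoc] using congrArg (· * (y.1.val * x.1.val)) hw
  refine ⟨w, ?_, x, x.2, y, y.2, e1, (u2 x).1 h1, (u2 y).1 hy⟩
  rw [← orderOf_eq_prime (five_of_smul (pow_five h _ ⁅x, y⁆.2) hw) fun e =>
    hxy (Subtype.ext (Units.ext (by rw [e, one_smul] at e1; exact e1.symm)))]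
  exact IsPrimitiveRoot.orderOf _

/-- the standard extraspecial group -/
def Heis (F : Type*) [Field F] : Subgroup (G5 F) :=
  Subgroup.closure {g | g.val = cyc F ∨ ∃ e : F, e ^ 5 = 1 ∧ g.val = dX e}

theorem hm_cyc : Hm (Heis F) (cyc F) :=
  Hm.of (by simp [det_cyc]) fun _ hg => Subgroup.subset_closure (Or.inl hg)

theorem hm_dX (h : w ^ 5 = 1) : Hm (Heis F) (dX w) :=
  Hm.of (by simp [det_dX h]) fun _ hg => Subgroup.subset_closure (Or.inr ⟨w, h, hg⟩)

theorem Heis_le (h : IsPrimitiveRoot w 5) (h1 : Hm H (dX w)) (h2 : Hm H (cyc F)) : Heis F ≤ H := by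
  obtain ⟨x, hx, ex⟩ := h1
  rw [Heis, Subgroup.closure_le]
  rintro g (e | ⟨e, he, e'⟩)
  · exact (e ▸ h2).mem'
  · obtain ⟨a, -, rfl⟩ := h.eq_pow_of_pow_eq_one he
    rw [show g = x ^ a from Units.ext (by rw [e', Units.val_pow_eq_pow_val, ex, dX_pow])]
    exact H.pow_mem hx a

theorem Heis_le_S5 (h : IsPrimitiveRoot w 5) : Heis F ≤ S5 F :=
  Heis_le h (hm_S5 (det_dX h.pow_eq_one)) (hm_S5 det_cyc)

theorem cjS_Heis (h : IsPrimitiveRoot w 5) {x y B : G5 F} (hx : cj B (dX w) = x.val) (hy : cj B (cyc F) = y.val) :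
    cjS B (Heis F) = Subgroup.closure {x, y} := by
  have key : ∀ {m : M5 F} {x : G5 F}, cj B m = x.val → (B⁻¹ * x * B).val = m := fun {m x} e => by
    have := cj_coe B⁻¹ x
    rwa [inv_inv, ← e, cj_inv_cj, eq_comm] at this
  have mem : ∀ {m : M5 F} {g : G5 F}, cj B m = g.val → g ∈ ({x, y} : Set (G5 F)) →
      Hm (cjS B⁻¹ (Subgroup.closure {x, y})) m := fun e hg =>
    ⟨_, by simpa [mem_cjS, mul_assoc] using Subgroup.subset_closure hg, key e⟩
  refine le_antisymm ?_ ((Subgroup.closure_le _).2 ?_)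
  · simpa only [cjS_cjS_inv] using cjS_mono B (Heis_le h (mem hx (by simp)) (mem hy (by simp)))
  · rintro g (rfl | rfl)
    exacts [mem_cjS.2 (key hx ▸ hm_dX h.pow_eq_one).mem', mem_cjS.2 (key hy ▸ hm_cyc).mem']

theorem eq_cjS_Heis (h : IsPrimitiveRoot w 5) (hR : IsSymplecticTypeGroup 5 R) {x y B : G5 F} (hx : x ∈ R) (hy : y ∈ R)
    (hx' : ∀ r ∈ R, ⁅x, r⁆ ∈ Z5 F) (hy' : ∀ r ∈ R, ⁅y, r⁆ ∈ Z5 F) (ex : cj B (dX w) = x.val)
    (ey : cj B (cyc F) = y.val) : R = cjS B (Heis F) := by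
  rw [cjS_Heis h ex ey]
  refine (ex_of h ex ey).closure_eq hx hy (pow_five hR) ?_ hx' hy'
  rintro _ ⟨c, rfl⟩ hc
  obtain ⟨n, -, e⟩ := h.eq_pow_of_pow_eq_one (five_of_smul hc (coe_sc c))
  exact ⟨n, by rw [← map_pow]; exact congrArg (sc _ F) (Units.ext e.symm)⟩

theorem nf6_lin [Finite F] (h : IsSymplecticTypeGroup 5 R) (hi : ActsAbsolutelyIrreducibly (matrixSet R))
    (hz : Nat.card (Subgroup.center R) = 5) : ∃ w : F, IsPrimitiveRoot w 5 ∧ ∃ B : G5 F, R = cjS B (Heis F) := by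
  obtain ⟨w, hw, x, hx, y, hy, e, hx', hy'⟩ := exists_xy h hi hz
  obtain ⟨B, ex, ey⟩ := nf6 hw (pow_five h x hx) (pow_five h y hy) e
  exact ⟨w, hw, B, eq_cjS_Heis hw h hx hy hx' hy' ex ey⟩

/-- the normaliser of the standard extraspecial group -/
def NH (F : Type*) [Field F] : Subgroup (G5 F) := subgroupNormalizer (Heis F)

theorem cjS_normalizer (B : G5 F) (R : Subgroup (G5 F)) :
    subgroupNormalizer (cjS B R) = cjS B (subgroupNormalizer R) := by
  have key : ∀ (B : G5 F) (R : Subgroup (G5 F)), cjS B (subgroupNormalizer R) ≤ subgroupNormalizer (cjS B R) :=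
    fun B R => nrmS_iff_le_normalizer.1 ((nrmS_iff_le_normalizer.2 le_rfl).cjS B)
  refine le_antisymm (T3.le_cjS_of_inv ?_) (key B R)
  simpa only [cjS_inv_cjS] using key B⁻¹ (cjS B R)

theorem mem_NH [Finite F] {x y g : G5 F} (e : Heis F = Subgroup.closure {x, y}) (h1 : g * x * g⁻¹ ∈ Heis F)
    (h2 : g * y * g⁻¹ ∈ Heis F) : g ∈ NH F := by
  haveI : Finite (G5 F) := finite_GL
  refine Subgroup.mem_normalizer_fintype fun n hn => (?_ : cjS g (Heis F) ≤ Heis F) (conj_mem_cjS hn)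
  conv_lhs => rw [e, cjS, MonoidHom.map_closure]
  rw [Subgroup.closure_le]
  rintro _ ⟨u, rfl | rfl, rfl⟩ <;> assumption

theorem exists_ex (h : IsPrimitiveRoot w 5) (B : G5 F) :
    ∃ x y z, Ex (Z5 F) x y z ∧ ∀ g ∈ cjS B (NH F), Nz (Z5 F) x y g := by
  obtain ⟨x, -, hx⟩ := hm_dX h.pow_eq_one
  obtain ⟨y, -, hy⟩ := hm_cyc (F := F)
  have ex := hx ▸ cj_coe B x
  have ey := hy ▸ cj_coe B y
  refine ⟨_, _, _, ex_of h ex ey, fun g hg => ?_⟩
  have := nrmS_iff_le_normalizer.2 (cjS_normalizer B (Heis F)).ge g hg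
  rw [cjS_Heis h ex ey] at this
  exact ⟨(ex_of h ex ey).form (this _ (Subgroup.subset_closure (by simp))),
    (ex_of h ex ey).form (this _ (Subgroup.subset_closure (by simp)))⟩

theorem pow300 (h : IsPrimitiveRoot w 5) {B g : G5 F} (hg : g ∈ cjS B (NH F)) : g ^ 300 ∈ Z5 F := by
  obtain ⟨x, y, z, h1, h2⟩ := exists_ex h B
  exact h1.pow300 (h2 g hg)

theorem four6 (h : IsPrimitiveRoot w 5) {B j k : G5 F} (hj : j ∈ cjS B (NH F)) (hk : k ∈ cjS B (NH F))
    (j2 : j ^ 2 = 1) (k2 : k ^ 2 = 1) (jk : (j * k) ^ 2 = 1) : j ∈ Z5 F ∨ k ∈ Z5 F ∨ j * k ∈ Z5 F := by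
  obtain ⟨x, y, z, h1, h2⟩ := exists_ex h B
  exact h1.four (h2 j hj) (h2 k hk) j2 k2 jk

/-! ### The unitary case -/

section su

variable [Fintype F] {q : ℕ} [U.IsSq F q]

theorem mem_GU' {g : G5 F} : g ∈ GU 5 F q ↔ cT (U.cj q) g.val * g.val = 1 := by
  rw [mem_GU, ← transpose_inj, transpose_mul, transpose_transpose, transpose_one, cT]

theorem exists_GU {B : G5 F} {c : F} (h : cT (U.cj q) B.val * B.val = c • 1) : ∃ l, sc _ F l * B ∈ GU 5 F q := by
  have h0 : c ≠ 0 := by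
    rintro rfl
    have := isUnit_transpose_mul_map (U.cj q) isUnit_one B
    rw [mul_one, ← isUnit_transpose, transpose_mul, transpose_transpose, ← cT, h, zero_smul] at this
    exact not_isUnit_zero this
  have h1 := congrArg (cT (U.cj q)) h
  rw [cT_mul, cT_cT U.cj_cj, h, cT_smul, cT_one] at h1
  obtain ⟨l, hl⟩ := U.exists_norm_eq (q := q) (c := c⁻¹) (by
    rw [map_inv₀]; simpa using (congrFun (congrFun h1 0) 0).symm)
  refine ⟨Units.mk0 l (by rintro rfl; exact h0 (by simpa using hl.symm)), mem_GU'.2 ?_⟩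
  rw [coe_sc_mul, cT_smul, smul_mul_smul_comm, h, smul_smul, Units.val_mk0, mul_comm _ l, hl, inv_mul_cancel₀ h0,
    one_smul]

theorem hm_GU_mo (h : ∀ i, d i ^ (q + 1) = 1) : Hm (GU 5 F q) (mo d σ) :=
  hm_GU (by simp only [mo_herm, U.mul_cj, h, diagonal_one])

omit [Fintype F] [U.IsSq F q] in
theorem root_pow (hq : q % 5 = 4) (h : w ^ 5 = 1) (n : ℕ) : (w ^ n) ^ (q + 1) = 1 := by
  rw [← pow_mul, mul_comm, pow_mul, pow_eq_pow_mod _ h, show (q + 1) % 5 = 0 by omega, pow_zero, one_pow]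

theorem Heis_le_SU (hq : q % 5 = 4) (h : IsPrimitiveRoot w 5) : Heis F ≤ SU5 F q :=
  le_inf (Heis_le h (hm_GU_mo fun _ => root_pow hq h.pow_eq_one _) (hm_GU_mo fun _ => one_pow _)) (Heis_le_S5 h)

theorem nf6u (hq : q % 5 = 4) (h : IsPrimitiveRoot w 5) {x y : G5 F} (x5 : x ^ 5 = 1) (y5 : y ^ 5 = 1)
    (e : x.val * y.val = w • (y.val * x.val)) (hx : x ∈ GU 5 F q) (hy : y ∈ GU 5 F q) :
    ∃ B ∈ GU 5 F q, cj B (dX w) = x.val ∧ cj B (cyc F) = y.val := by
  obtain ⟨B, ex, ey⟩ := nf6 h x5 y5 e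
  have key : ∀ {m : M5 F} {x : G5 F}, Hm (Heis F) m → x ∈ GU 5 F q → cj B m = x.val →
      cT (U.cj q) B.val * B.val * m = m * (cT (U.cj q) B.val * B.val) := by
    rintro _ x ⟨m, hm, rfl⟩ hx e
    rw [cj_eq_iff] at e
    have h1 := mul_eq_one_comm.1 (mem_GU'.1 (Heis_le_SU hq h hm).1)
    calc _ = m.val * (cT (U.cj q) (B.val * m.val) * (B.val * m.val)) := by
          simp only [cT_mul, ← mul_assoc, h1, one_mul]
      _ = _ := by rw [e, cT_mul, mul_assoc, ← mul_assoc (cT _ x.val), mem_GU'.1 hx, one_mul]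
  obtain ⟨l, hl⟩ := exists_GU (cent_dc h (key (hm_dX h.pow_eq_one) hx ex) (key hm_cyc hy ey))
  exact ⟨_, hl, by rw [cj_mul, cj_of_mem_scalars (sc_mem l), ex], by rw [cj_mul, cj_of_mem_scalars (sc_mem l), ey]⟩

theorem nf6_uni (hq : q % 5 = 4) (h : IsSymplecticTypeGroup 5 R) (hi : ActsAbsolutelyIrreducibly (matrixSet R))
    (hz : Nat.card (Subgroup.center R) = 5) (hS : R ≤ similarityGroup (hermForm 5 F q)) :
    ∃ w : F, IsPrimitiveRoot w 5 ∧ ∃ B ∈ GU 5 F q, R = cjS B (Heis F) := by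
  obtain ⟨w, hw, x, hx, y, hy, e, hx', hy'⟩ := exists_xy h hi hz
  have hG : R ≤ GU 5 F q := fun r hr => by
    obtain ⟨c, hc⟩ := mem_similarityGroup_gform.1 (herm_eq (F := F) (q := q) ▸ hS hr)
    rw [mul_one] at hc
    have h1 : ∀ n : ℕ, (r ^ n).valᵀ * (r ^ n).val.map (U.cj q) = (c : F) ^ n • 1 := fun n => by
      induction n with
      | zero => simp
      | succ n ih =>
        rw [pow_succ', Units.val_mul, transpose_mul, Matrix.map_mul, mul_assoc, ← mul_assoc r.valᵀ, hc, smul_mul_assoc,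
          one_mul, mul_smul_comm, ih, smul_smul, pow_succ']
    have h5 : (c : F) ^ 5 = 1 := by simpa [pow_five h r hr] using (congrFun (congrFun (h1 5) 0) 0).symm
    have h2 : U.cj q (c : F) = c := by
      have := congrFun (congrFun hc 0) 0
      simp only [mul_apply, transpose_apply, map_apply, Matrix.smul_apply, one_apply_eq, smul_eq_mul, mul_one] at this
      simp [← this, U.cj_cj, mul_comm]
    rw [U.cj_apply, pow_eq_pow_mod q h5, hq] at h2
    rw [show (c : F) = 1 by linear_combination (1 - (c : F) ^ 3 - c) * h5 + (c ^ 4 + c ^ 2) * h2, one_smul] at hc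
    exact mem_GU.2 hc
  obtain ⟨B, hB, ex, ey⟩ := nf6u hq hw (pow_five h x hx) (pow_five h y hy) e (hG hx) (hG hy)
  exact ⟨w, hw, B, hB, eq_cjS_Heis hw h hx hy hx' hy' ex ey⟩

end su

/-! ### The normaliser -/

/-- `M` contains enough of the normaliser of the standard extraspecial group -/
structure Xr (M : Subgroup (G5 F)) (w : F) : Prop where
  hw : IsPrimitiveRoot w 5
  le : Heis F ≤ M
  j : Hm M (mo (fun _ => 1) (swap 1 4 * swap 2 3))
  u : ∀ x ∈ Heis F, ∀ y ∈ Heis F, x ^ 5 = 1 → y ^ 5 = 1 → x.val * y.val = w • (y.val * x.val) →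
    ∃ u ∈ M, u * x = x * u ∧ u * y = y * x * u

/-- an element of order five of the normaliser -/
def uu (w : F) : M5 F := mo (fun i => w ^ i.val.choose 2) 1

theorem exists_uu (hw : IsPrimitiveRoot w 5) {x y B : G5 F} (ex : cj B (dX w) = x.val) (ey : cj B (cyc F) = y.val)
    (h : Hm H (uu w)) : ∃ u ∈ cjS B H, u * x = x * u ∧ u * y = y * x * u := by
  obtain ⟨u, hu, e⟩ := h
  refine ⟨_, conj_mem_cjS hu, Units.ext ?_, Units.ext ?_⟩ <;>
    simp only [Units.val_mul (B * u * B⁻¹), Units.val_mul _ (B * u * B⁻¹), Units.val_mul y, ← cj_coe, ← ex, ← ey, e,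
      ← map_mul, uu, dX, cyc, mo_mul] <;> congr 2 <;> ext i
  · exact mul_comm _ _
  · fin_cases i <;> simp [Nat.choose] <;> first | ring1 | linear_combination -(w ^ 5 + 1) * hw.pow_eq_one

theorem hm_uu (hw : IsPrimitiveRoot w 5) : Hm (S5 F) (uu w) := hm_S5 (by
  simp [uu, det_mo, Fin.prod_univ_five, Nat.choose]; linear_combination (w ^ 5 + 1) * hw.pow_eq_one)

theorem xr_S5 (hw : IsPrimitiveRoot w 5) : Xr (S5 F) w :=
  ⟨hw, Heis_le_S5 hw, hm_S5 (by simp [det_mo]), fun x _ y _ x5 y5 e => by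
    obtain ⟨B, ex, ey⟩ := nf6 hw x5 y5 e
    exact cjS_S5 B ▸ exists_uu hw ex ey (hm_uu hw)⟩

theorem xr_SU [Fintype F] {q : ℕ} [U.IsSq F q] (hq : q % 5 = 4) (hw : IsPrimitiveRoot w 5) : Xr (SU5 F q) w :=
  ⟨hw, Heis_le_SU hq hw, (hm_GU_mo fun _ => one_pow _).inf (xr_S5 hw).j, fun x hx y hy x5 y5 e => by
    obtain ⟨B, hB, ex, ey⟩ := nf6u hq hw x5 y5 e (Heis_le_SU hq hw hx).1 (Heis_le_SU hq hw hy).1
    exact cjS_SU hB ▸ exists_uu hw ex ey ((hm_GU_mo fun _ => root_pow hq hw.pow_eq_one _).inf (hm_uu hw))⟩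

theorem pi_eq {B : G5 F} {σ τ : Perm (Fin 5)} {e : Fin 5 → F} (hd : ∀ i, d i ≠ 0) (h : cj B (mo d σ) = cj B (mo e τ)) :
    σ = τ := Perm.ext fun j => by
  by_contra hc
  exact hd j (by simpa [mo, hc] using congrFun (congrFun ((cj B).injective h) (σ j)) j)

theorem ne_of_cj {B g : G5 F} (h : g.val = cj B (mo d σ)) (i : Fin 5) : d i ≠ 0 := fun e => by
  have := congrArg det h
  rw [det_cj, det_mo, Finset.prod_eq_zero (Finset.mem_univ i) e, mul_zero] at this
  exact g.det_ne_zero this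

namespace Xr

variable (h : Xr M w)
include h

theorem mono (hle : M ≤ H) : Xr H w :=
  ⟨h.hw, h.le.trans hle, h.j.mono hle, fun x hx y hy x5 y5 e => (h.u x hx y hy x5 y5 e).imp fun _ k => ⟨hle k.1, k.2⟩⟩

theorem inf [Finite F] : Xr (NH F ⊓ M) w := by
  haveI : Finite (G5 F) := finite_GL
  obtain ⟨x, hx, ex⟩ := hm_dX h.hw.pow_eq_one
  obtain ⟨y, hy, ey⟩ := hm_cyc (F := F)
  refine ⟨h.hw, le_inf Subgroup.le_normalizer h.le, ?_, fun x hx y hy x5 y5 e => ?_⟩
  · obtain ⟨j, hj, ej⟩ := h.j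
    refine ⟨j, ⟨mem_NH ((cjS_one _).symm.trans (cjS_Heis h.hw ((cj_one _).trans ex.symm) ((cj_one _).trans ey.symm)))
      ?_ ?_, hj⟩, ej⟩
    · rw [show j * x * j⁻¹ = x ^ 4 from mul_inv_eq_of_eq_mul (Units.ext ?_)]
      · exact pow_mem hx 4
      rw [Units.val_mul, Units.val_mul, Units.val_pow_eq_pow_val, ex, ej, dX_pow, dX, dX, mo_mul, mo_mul]
      have := h.hw.pow_eq_one
      congr 1; ext i; fin_cases i <;> simp [swap_apply_def] <;> grind
    · rw [show j * y * j⁻¹ = y ^ 4 from mul_inv_eq_of_eq_mul (Units.ext ?_)]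
      · exact pow_mem hy 4
      rw [Units.val_mul, Units.val_mul, Units.val_pow_eq_pow_val, ey, ej, cyc, mo_pow, mo_mul, mo_mul]
      congr 1; decide
  · obtain ⟨u, hu, e1, e2⟩ := h.u x hx y hy x5 y5 e
    obtain ⟨B, ex, ey⟩ := nf6 h.hw x5 y5 e
    have e3 := cjS_Heis h.hw ex ey
    refine ⟨u, ⟨mem_NH ((Subgroup.eq_of_le_of_card_ge (e3.le.trans ((Subgroup.closure_le _).2 ?_))
      (T3.card_cjS _ _).ge).symm.trans e3) ?_ ?_, hu⟩, e1, e2⟩
    · rintro _ (rfl | rfl) <;> assumption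
    · rwa [e1, mul_inv_cancel_right]
    · rw [e2, mul_inv_cancel_right]; exact mul_mem hy hx

theorem irr : Irr M := fun _ hW =>
  irr_dc h.hw (fun _ => ((hm_dX h.hw.pow_eq_one).mono h.le).mem hW) fun _ => (hm_cyc.mono h.le).mem hW

theorem not_mon {B : G5 F} (hM : M ≤ cjS B (Mon F)) : False := by
  obtain ⟨π, hπ⟩ := exists_pi hM
  have key : ∀ x (hx : x ∈ Heis F), ∀ y ∈ Heis F, x ^ 5 = 1 → y ^ 5 = 1 → x.val * y.val = w • (y.val * x.val) →
      π ⟨x, h.le hx⟩ = 1 := fun x hx y hy x5 y5 e => by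
    obtain ⟨u, hu, e1, e2⟩ := h.u x hx y hy x5 y5 e
    obtain ⟨a, ha⟩ := hπ ⟨x, h.le hx⟩
    obtain ⟨b, hb⟩ := hπ ⟨y, h.le hy⟩
    have f1 := congrArg π (show (⟨u, hu⟩ * ⟨x, h.le hx⟩ : M) = ⟨x, h.le hx⟩ * ⟨u, hu⟩ from Subtype.ext e1)
    have f2 := congrArg π (show (⟨u, hu⟩ * ⟨y, h.le hy⟩ : M) = ⟨y, h.le hy⟩ * ⟨x, h.le hx⟩ * ⟨u, hu⟩ from Subtype.ext e2)
    have f3 := congrArg π (show (⟨x, h.le hx⟩ : M) ^ 5 = 1 from Subtype.ext x5)
    have f4 : π ⟨x, h.le hx⟩ * π ⟨y, h.le hy⟩ = π ⟨y, h.le hy⟩ * π ⟨x, h.le hx⟩ := by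
      have a0 := ne_of_cj ha
      have b0 := ne_of_cj hb
      rw [ha, hb, ← map_mul, ← map_mul, ← map_smul, mo_mul, mo_mul, smul_mo] at e
      exact pi_eq (fun i => mul_ne_zero (a0 _) (b0 _)) e
    simp only [map_mul, map_pow, map_one] at f1 f2 f3
    by_contra hc
    obtain ⟨n, hn⟩ := (by decide +kernel : ∀ X : Perm (Fin 5), X ^ 5 = 1 → X ≠ 1 → ∀ Y, X * Y = Y * X →
      ∃ n : Fin 5, Y = X ^ n.val) _ f3 hc _ f4
    rw [hn, ((show Commute _ _ from f1).pow_right _).eq, mul_left_inj, left_eq_mul] at f2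
    exact hc f2
  obtain ⟨x, hx, ex⟩ := hm_dX h.hw.pow_eq_one
  obtain ⟨y, hy, ey⟩ := hm_cyc (F := F)
  have E := ex_of h.hw ((cj_one _).trans ex.symm) ((cj_one _).trans ey.symm)
  have y5 : (y ^ 4) ^ 5 = 1 := by rw [pow_right_comm, E.y5, one_pow]
  have e : (y ^ 4).val * x.val = w • (x.val * (y ^ 4).val) := by
    have := congrArg Units.val (E.pow_pow 1 4)
    rw [pow_one, ← map_pow, coe_sc_mul, Units.val_mul, Units.val_mul] at this
    rw [this, smul_smul, Units.val_pow_eq_pow_val (Units.mk0 _ _), Units.val_mk0, ← pow_succ', h.hw.pow_eq_one, one_smul]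
  obtain ⟨a, ha⟩ := hπ ⟨x, h.le hx⟩
  obtain ⟨b, hb⟩ := hπ ⟨_, h.le (pow_mem hy 4)⟩
  rw [key x hx y hy E.x5 E.y5 (by rw [ex, ey, dX_cyc h.hw.pow_eq_one])] at ha
  rw [key _ (pow_mem hy 4) x hx y5 E.x5 e] at hb
  have a0 := ne_of_cj ha 0
  have b0 := ne_of_cj hb 0
  rw [ha, hb, ← map_mul, ← map_mul, ← map_smul, mo_mul, mo_mul, smul_mo] at e
  have := congrFun (congrFun ((cj B).injective e) 0) 0
  simp only [mo, of_apply, mul_one, Perm.one_apply, if_true] at this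
  exact h.hw.ne_one (by norm_num) (mul_right_cancel₀ (mul_ne_zero a0 b0) (by linear_combination -this))

theorem not_fld [Finite F] {K : Subalgebra F (M5 F)} (hK : IsFieldSubalgebra 5 K) (hM : M ≤ subalgebraNormalizer K) :
    False := by
  obtain ⟨c, hc⟩ := fld_inv hK (h.j.mono hM) (by rw [mo_mul, ← mo_one_one]; congr 1; exacts [by simp, by decide])
  exact mo_ne_smul (i := 1) (by decide) one_ne_zero c hc

theorem not_colO (hM : ColO M) : False := by
  obtain ⟨x, hx, ex⟩ := hm_dX h.hw.pow_eq_one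
  obtain ⟨y, hy, ey⟩ := hm_cyc (F := F)
  have := congrArg Units.val (hM.comm (h.le hx) (h.le hy)
    (ex_of h.hw ((cj_one _).trans ex.symm) ((cj_one _).trans ey.symm)).rel)
  exact h.hw.pow_ne_one_of_pos_of_lt two_ne_zero (by norm_num) this

end Xr

end H19.T5
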