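import Mathlib
import Cfsg.Agent.Base
import Cfsg.Agent.Lib.Tab5.Heis

/-!
Monomial subgroups of `SL₅`.
-/

set_option autoImplicit false
set_option linter.style.haveILetI false

namespace H19.T5

open Matrix Cfsg Cfsg.Geo H10.Asch H11 Equiv
open H11.T3 (rt mem_rt)
open scoped commutatorElement

variable {F : Type*} [Field F] {H M : Subgroup (G5 F)} {μ : Subgroup Fˣ} {k : Subfield F}

/-- `H` contains the even monomial matrices of determinant one with entries in `μ` -/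
def Tor (H : Subgroup (G5 F)) (μ : Subgroup Fˣ) : Prop :=
  ∀ (d : Fin 5 → Fˣ) (σ : Perm (Fin 5)), (∀ i, d i ∈ μ) → ∏ i, d i = 1 → Perm.sign σ = 1 → Hm H (mo (fun i => d i) σ)

theorem tor_S5 (μ : Subgroup Fˣ) : Tor (S5 F) μ := fun d σ _ h1 h2 => hm_S5 (by
  rw [det_mo, h2, ← Units.coe_prod, h1]; simp)

theorem tor_Mon (μ : Subgroup Fˣ) : Tor (Mon F) μ := fun d _ _ _ _ => hm_Mon fun i => (d i).ne_zero

theorem tor_sub (h : ∀ x ∈ μ, (x : F) ∈ k) : Tor (subfieldSubgroup k 1) μ := fun d σ h0 _ _ =>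
  hm_sub (det_mo_ne fun i => (d i).ne_zero) fun i j => by
    rw [mo, of_apply]; split_ifs; exacts [h _ (h0 j), k.zero_mem]

theorem tor_GU [Fintype F] {q : ℕ} [U.IsSq F q] (h : μ ≤ rt F (q + 1)) : Tor (GU 5 F q) μ := fun _ _ h0 _ _ =>
  hm_GU_mo fun i => mem_rt.1 (h (h0 i))

theorem tor_SU [Fintype F] {q : ℕ} [U.IsSq F q] (h : μ ≤ rt F (q + 1)) : Tor (SU5 F q) μ := fun d σ h0 h1 h2 =>
  (tor_GU h d σ h0 h1 h2).inf (tor_S5 μ d σ h0 h1 h2)

namespace Tor

theorem inf (h : Tor H μ) (h' : Tor M μ) : Tor (H ⊓ M) μ := fun d σ h0 h1 h2 => (h d σ h0 h1 h2).inf (h' d σ h0 h1 h2)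

variable (h : Tor M μ)
include h

theorem mono (hle : M ≤ H) : Tor H μ := fun d σ h0 h1 h2 => (h d σ h0 h1 h2).mono hle

theorem perm {σ : Perm (Fin 5)} (e : Perm.sign σ = 1) : Hm M (mo (fun _ => 1) σ) :=
  h 1 σ (fun _ => μ.one_mem) (by simp) e

theorem two {a : Fˣ} (ha : a ∈ μ) (i j : Fin 5) :
    Hm M (mo (fun l => (Pi.mulSingle i a * Pi.mulSingle j a⁻¹ : Fin 5 → Fˣ) l) 1) :=
  h _ 1 (fun l => by
    simp only [Pi.mul_apply, Pi.mulSingle_apply]
    split_ifs <;> simp [ha]) (by simp [Finset.prod_mul_distrib]) (map_one _)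

theorem irr {a : Fˣ} (ha : a ∈ μ) (h1 : a ≠ 1) : Irr M := fun W hW => by
  refine irr_of (fun v hv i hi => ?_) fun _ => (h.perm (by decide)).mem hW
  have key := fun j v => step_diag (v := v) (W := W) (fun _ hv => by simpa only [mo_one] using (h.two ha i j).mem hW hv) 1
  have h2 : (a : F) - 1 ≠ 0 := sub_ne_zero.2 (by simpa using h1)
  obtain ⟨e1, e2, e3⟩ := (by decide : ∀ i : Fin 5, i ≠ i + 1 ∧ i ≠ i + 2 ∧ i + 1 ≠ i + 2) i
  convert W.smul_mem ((a - 1) * ((a - 1) * v i))⁻¹ (key (i + 1) _ (key (i + 2) _ hv)) using 1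
  ext l
  by_cases e : l = i
  · subst e; simp [e1, e2]; field_simp
  · by_cases e' : l = i + 1
    · subst e'; simp [e, e3]
    · simp [e, e']

theorem not_fld [Finite F] {K : Subalgebra F (M5 F)} (hK : IsFieldSubalgebra 5 K) (hM : M ≤ subalgebraNormalizer K) :
    False := by
  obtain ⟨c, hc⟩ := fld_inv hK ((h.perm (σ := swap 0 1 * swap 2 3) (by decide)).mono hM)
    (by rw [mo_mul, ← mo_one_one]; congr 1; exacts [by simp, by decide])
  exact mo_ne_smul (i := 1) (by decide) one_ne_zero c hc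

theorem not_ext {w : F} (hw : IsPrimitiveRoot w 5) {B : G5 F} (hM : M ≤ cjS B (NH F)) : False := by
  obtain ⟨j, hj, ej⟩ := h.perm (σ := swap 0 1 * swap 2 3) (by decide)
  obtain ⟨l, hl, el⟩ := h.perm (σ := swap 0 2 * swap 1 3) (by decide)
  have e : (j * l).val = mo (fun _ => 1) (swap 0 3 * swap 1 2) := by
    rw [Units.val_mul, ej, el, mo_mul]; congr 1; exacts [by simp, by decide]
  have k1 : ∀ {g : G5 F} {σ : Perm (Fin 5)}, g.val = mo (fun _ => 1) σ → σ ^ 2 = 1 → g ^ 2 = 1 := fun e h =>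
    Units.ext (by rw [Units.val_pow_eq_pow_val, e, mo_pow, h, mo_one_one, Units.val_one])
  have k2 : ∀ {g : G5 F} {σ : Perm (Fin 5)}, g.val = mo (fun _ => 1) σ → σ 0 ≠ 0 → g ∉ Z5 F := fun e h hz => by
    obtain ⟨c, hc⟩ := (mem_scalars_iff _).1 hz
    exact mo_ne_smul h one_ne_zero _ (e.symm.trans hc)
  rcases four6 hw (hM hj) (hM hl) (k1 ej (by decide)) (k1 el (by decide)) (k1 e (by decide)) with e' | e' | e'
  exacts [k2 ej (by decide) e', k2 el (by decide) e', k2 e (by decide) e']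

theorem exists_comm {a : Fˣ} (ha : a ∈ μ) :
    ∃ m n : M5 F, Hm ⁅M, M⁆ m ∧ m * n = 1 ∧ m.trace = a ∧ n.trace = (a : F)⁻¹ := by
  refine ⟨mo ![(a : F), (a : F)⁻¹, 1, 1, 1] 1 * mo (fun _ => 1) (swap 1 2 * swap 3 4), mo ![(a : F)⁻¹, a, 1, 1, 1] (swap 1 2 * swap 3 4),
    Hm.mul (Hm.comm (h.two ha 0 4) (h.perm (σ := swap 0 1 * swap 1 2) (by decide)) ?_)
      (Hm.comm (h.perm (σ := swap 1 3 * swap 2 4) (by decide)) (h.perm (σ := swap 2 3 * swap 1 2) (by decide)) ?_),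
    ?_, ?_, ?_⟩
  · simp only [mo_mul]; congr 1; ext i; fin_cases i <;> simp [swap_apply_def]
  · simp only [mo_mul]; congr 1; exacts [by simp, by decide]
  · rw [mo_mul, mo_mul, ← mo_one_one]; congr 1
    · ext i; fin_cases i <;> simp [swap_apply_def]
    · decide
  · rw [mo_mul]; simp [trace, mo, Fin.sum_univ_five, swap_apply_def]
  · simp [trace, mo, Fin.sum_univ_five, swap_apply_def]

theorem le_sub {P : G5 F} (hM : M ≤ subfieldSubgroup k P) {a : Fˣ} (ha : a ∈ μ) : (a : F) ∈ k := by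
  obtain ⟨m, -, h1, -, h2, -⟩ := h.exists_comm ha
  exact h2 ▸ tr_sub hM h1

theorem sim {σ : F →+* F} {G : M5 F} (hG : IsUnit G) (hM : M ≤ similarityGroup (gform σ G)) {a : Fˣ} (ha : a ∈ μ) :
    σ a * a = 1 := by
  obtain ⟨m, n, h1, h2, h3, h4⟩ := h.exists_comm ha
  rw [← h3, tr_sim hG hM h1 h2, h3, h4, inv_mul_cancel₀ a.ne_zero]

theorem card_dvd : 3 * Nat.card μ ^ 4 ∣ Nat.card M := by
  obtain ⟨π, hπ⟩ := exists_pi (M := M ⊓ Mon F) (B := 1) (inf_le_right.trans (cjS_one _).ge)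
  have T := h.inf (tor_Mon μ)
  refine Dvd.dvd.trans ?_ (Subgroup.card_dvd_of_le (inf_le_left (b := Mon F)))
  rw [Subgroup.card_eq_card_quotient_mul_card_subgroup π.ker,
    Nat.card_congr (QuotientGroup.quotientKerEquivRange π).toEquiv]
  have key : ∀ {g : ↥(M ⊓ Mon F)} {d : Fin 5 → F} {σ : Perm (Fin 5)}, g.1.val = mo d σ → π g = σ := fun {g d σ} e => by
    obtain ⟨c, hc⟩ := hπ g
    exact pi_eq (ne_of_cj hc) (hc.symm.trans (e.trans (cj_one _).symm))
  refine mul_dvd_mul ?_ ?_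
  · obtain ⟨g, hg, e⟩ := T.perm (σ := swap 0 1 * swap 1 2) (by decide)
    haveI : Fact (Nat.Prime 3) := ⟨Nat.prime_three⟩
    rw [← orderOf_eq_prime (x := (swap 0 1 * swap 1 2 : Perm (Fin 5))) (p := 3) (by decide) (by decide)]
    exact Subgroup.orderOf_dvd_natCard _ ⟨⟨g, hg⟩, key e⟩
  · choose g hg eg using fun x : Fin 4 → μ => T ![x 0, x 1, x 2, x 3, ((x 0 * x 1 * x 2 * x 3)⁻¹ : μ)] 1
      (fun i => by fin_cases i <;> exact SetLike.coe_mem _) (by simp [Fin.prod_univ_five]) (map_one _)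
    rw [← Fintype.card_fin 4, ← Nat.card_eq_fintype_card, ← Nat.card_fun]
    refine Subgroup.card_dvd_of_injective (MonoidHom.mk' (fun x => (⟨⟨g x, hg x⟩, key (eg x)⟩ : π.ker)) fun x y =>
      Subtype.ext (Subtype.ext (Units.ext ?_))) fun x y e => ?_
    · change (g (x * y)).val = (g x).val * (g y).val
      rw [eg, eg, eg, mo_mul]; congr 1; ext i; fin_cases i <;> simp; ring
    · have : (g x).val = (g y).val := congrArg (fun u : π.ker => u.1.1.val) e
      rw [eg, eg] at this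
      ext i
      fin_cases i
      exacts [by simpa [mo] using congrFun (congrFun this 0) 0, by simpa [mo] using congrFun (congrFun this 1) 1,
        by simpa [mo] using congrFun (congrFun this 2) 2, by simpa [mo] using congrFun (congrFun this 3) 3]

theorem not_colS (h3 : 3 ≤ Nat.card μ) (hM : Nat.card M ∣ 2851200) : False := by
  have h1 := h.card_dvd.trans hM
  generalize Nat.card μ = a at *
  have h2 : a ≤ 31 := by
    by_contra hc
    have := Nat.le_of_dvd (by norm_num) h1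
    have : 32 ^ 4 ≤ a ^ 4 := Nat.pow_le_pow_left (by omega) 4
    omega
  interval_cases a <;> omega

end Tor

end H19.T5
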