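import Mathlib
import Cfsg.Agent.Base
import Cfsg.Agent.Lib.Tab5.Tor

/-!
Singer cycles in `SL₅` and `SU₅`.
-/

set_option autoImplicit false
set_option linter.style.haveILetI false

namespace H19.T5

open Matrix Cfsg Cfsg.Geo H10.Asch H11 Equiv

variable {F : Type*} [Field F] {M : Subgroup (G5 F)} {K K' : Subalgebra F (M5 F)} {s : G5 F} {m : M5 F}

theorem inv_mem_of [Finite F] (h : s.val ∈ K) : (s⁻¹).val ∈ K := by
  haveI : Finite (G5 F) := finite_GL
  rw [inv_eq_of_mul_eq_one_right (b := s ^ (orderOf s - 1)) (by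
    rw [← pow_succ', Nat.sub_add_cancel (orderOf_pos s), pow_orderOf_eq_one])]
  exact K.pow_mem h _

theorem fld_le [Finite F] (hK : IsFieldSubalgebra 5 K) (h1 : m ∈ K) (h2 : m ∈ K') (h3 : ∀ c : F, m ≠ c • 1) :
    K ≤ K' := by
  have hL : IsFieldSubalgebra (Module.finrank F (K ⊓ K' :)) (K ⊓ K') := ⟨fun x hx y hy => hK.comm x hx.1 y hy.1,
    fun x hx h0 => by
      obtain ⟨y, -, e⟩ := hK.inv x hx.1 h0
      obtain ⟨u, rfl⟩ := IsUnit.of_mul_eq_one _ e
      exact ⟨_, inv_mem_of hx, u.mul_inv⟩, rfl⟩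
  rcases (Nat.dvd_prime (p := 5) (by norm_num)).1 (IsFieldSubalgebra.dvd_card hL) with e | e
  · obtain ⟨c, hc⟩ := scalar_of_finrank_eq_one e m ⟨h1, h2⟩
    exact absurd hc (h3 c)
  · exact (Subalgebra.eq_of_le_of_finrank_eq inf_le_left (e.trans hK.finrank_eq.symm)).ge.trans inf_le_right

theorem dvd_of_scalar (hs : s ∈ S5 F) {n : ℕ} {c : F} (h : (s ^ n).val = c • 1) : orderOf s ∣ n * 5 :=
  orderOf_dvd_of_pow_eq_one (Units.ext (by
    rw [pow_mul, Units.val_pow_eq_pow_val, h, smul_pow,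
      pow_of_scalar (mem_specialLinear.1 ((S5 F).pow_mem hs n)) h, one_pow, one_smul, Units.val_one]))

/-- the adjoint with respect to a conjugate of the standard form -/
def adj (σ : F →+* F) (B : G5 F) (x : M5 F) : M5 F := cj B (cT σ (cj B⁻¹ x))

theorem adj_pow [Fintype F] {q : ℕ} [U.IsSq F q] (hK : IsFieldSubalgebra 5 K) {B : G5 F}
    (hadj : ∀ x ∈ K, adj (U.cj q) B x ∈ K) (hm : m ∈ K) : adj (U.cj q) B m = m ^ q ^ 5 := by
  haveI : Finite (M5 F) := finite_matrix
  letI : Field K := (isField_subalgebra hK.comm hK.inv).toField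
  let τ : K →+* K :=
    { toFun := fun x => ⟨_, hadj x.1 x.2⟩
      map_one' := Subtype.ext (by simp [adj, cT_one])
      map_mul' := fun x y => Subtype.ext (by
        change adj _ B (x.1 * y.1) = adj _ B x.1 * adj _ B y.1
        rw [hK.comm _ x.2 _ y.2, adj, map_mul, cT_mul, map_mul]; rfl)
      map_zero' := Subtype.ext (by simp [adj, cT])
      map_add' := fun x y => Subtype.ext (by simp [adj, cT_add]) }
  obtain ⟨Q, h1, h2⟩ := T3.invol_pow (τ := τ) (fun e => by
    obtain ⟨a, ha⟩ := U.exists_cj_ne F q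
    have := congrArg (fun f : K →+* K => (f (a • 1)).1 0 0) e
    exact ha (by simpa [τ, adj, cT_smul, cT_one] using this)) fun x => Subtype.ext (by
      simp [τ, adj, cj_inv_cj, cT_cT U.cj_cj, cj_cj_inv])
  rw [Module.natCard_eq_pow_finrank (K := F), hK.finrank_eq, Nat.card_eq_fintype_card, U.IsSq.card_eq (q := q),
    ← pow_mul, mul_comm, pow_mul, Nat.pow_left_inj two_ne_zero] at h1
  exact h1 ▸ congrArg Subtype.val (h2 ⟨_, hm⟩)

/-- `M` contains an element of the field `K` -/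
structure Sing (M : Subgroup (G5 F)) (K : Subalgebra F (M5 F)) (s : G5 F) : Prop where
  fld : IsFieldSubalgebra 5 K
  le : M ≤ S5 F
  mem : s ∈ M
  mem' : s.val ∈ K
  big : ¬ orderOf s ∣ 14256000

namespace Sing

variable (h : Sing M K s)
include h

theorem ne (n : ℕ) (hn : n ∣ 2851200) (c : F) : (s ^ n).val ≠ c • 1 := fun e =>
  h.big ((dvd_of_scalar (h.le h.mem) e).trans (mul_dvd_mul_right hn 5))

theorem det_ne (n : ℕ) (hn : n ∣ 2851200) (c : F) : ((s ^ n).val - c • 1).det ≠ 0 := fun e =>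
  h.ne n hn c (fld_scalar h.fld (K.pow_mem h.mem' n) e)

theorem irr [Finite F] : Irr M := by
  intro W hW
  let K' : Subalgebra F (M5 F) :=
    { carrier := {k | ∀ v ∈ W, k *ᵥ v ∈ W}
      mul_mem' := fun ha hb v hv => by rw [← mulVec_mulVec]; exact ha _ (hb v hv)
      add_mem' := fun ha hb v hv => by rw [add_mulVec]; exact W.add_mem (ha v hv) (hb v hv)
      algebraMap_mem' := fun c v hv => by
        rw [Algebra.algebraMap_eq_smul_one, smul_mulVec, one_mulVec]; exact W.smul_mem c hv }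
  have h1 : K ≤ K' := fld_le h.fld h.mem' (hW s h.mem) (pow_one s ▸ h.ne 1 (one_dvd _))
  refine or_iff_not_imp_left.2 fun h0 => eq_top_iff.2 fun w _ => ?_
  obtain ⟨v, hv, hv0⟩ := (Submodule.ne_bot_iff _).1 h0
  obtain ⟨k, hk, rfl⟩ := IsFieldSubalgebra.exists_mulVec_eq (K := K) h.fld hv0 w
  exact h1 hk v hv

theorem not_mon {B : G5 F} (hM : M ≤ cjS B (Mon F)) : False := by
  obtain ⟨π, hπ⟩ := exists_pi hM
  obtain ⟨d, hd⟩ := hπ (⟨s, h.mem⟩ ^ 120)
  have := pow_card_eq_one' (x := π ⟨s, h.mem⟩)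
  rw [show Nat.card (Perm (Fin 5)) = 120 by simp [Fintype.card_perm]; rfl] at this
  rw [map_pow, this, mo_one] at hd
  refine h.det_ne 120 (by norm_num) (d 0) ?_
  rw [show (s ^ 120).val = _ from hd, ← map_one (cj B), ← map_smul, ← map_sub, det_cj, smul_one_eq_diagonal, diagonal_sub, det_diagonal]
  exact Finset.prod_eq_zero (Finset.mem_univ 0) (sub_self _)

theorem eq_fld [Finite F] (hK' : IsFieldSubalgebra 5 K') (hM : M ≤ subalgebraNormalizer K') : K' = K :=
  Subalgebra.eq_of_le_of_finrank_eq (fld_le hK' (pow_mem_fld hK' (hM h.mem)) (K.pow_mem h.mem' 5)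
    (h.ne 5 (by norm_num))) (hK'.finrank_eq.trans h.fld.finrank_eq.symm)

theorem not_colO (hM : ColO M) : False := by
  obtain ⟨c, hc⟩ := hM.eig h.mem (mem_specialLinear.1 (h.le h.mem))
  exact h.det_ne 1 (one_dvd _) c (by rw [pow_one, hc])

theorem not_ext {w : F} (hw : IsPrimitiveRoot w 5) {B : G5 F} (hM : M ≤ cjS B (NH F)) : False := by
  obtain ⟨c, hc⟩ := (mem_scalars_iff _).1 (pow300 hw (hM h.mem))
  exact h.ne 300 (by norm_num) _ hc

theorem not_colS (hM : Nat.card M ∣ 2851200) : False :=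
  h.big (((Subgroup.orderOf_dvd_natCard M h.mem).trans hM).trans (by norm_num))

theorem sub [Finite F] {k : Subfield F} {P : G5 F} (hM : M ≤ subfieldSubgroup k P) :
    ∃ n, 1 ≤ n ∧ n ≤ 5 ∧ orderOf s ∣ 5 * (Nat.card k ^ n - 1) := by
  haveI : Finite (M5 F) := finite_matrix
  letI : Field K := (isField_subalgebra h.fld.comm h.fld.inv).toField
  obtain ⟨c, x, ⟨g, rfl⟩, e⟩ := mem_sup_scalars.1 (mem_cjS.1 (hM h.mem))
  let ψ : M5 k →ₐ[k] M5 F := ((cj P : M5 F →ₐ[F] M5 F).restrictScalars k).comp (Algebra.ofId k F).mapMatrix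
  have e1 : s.val = (c : F) • ψ g.val := by
    rw [← cj_cj_inv P s.val, cj_coe, inv_inv, e, coe_sc_mul, map_smul]; rfl
  have e2 : (c : F) ^ 5 * (g.val.det : F) = 1 := by
    have := mem_specialLinear.1 (h.le h.mem)
    rw [e1, det_smul, Fintype.card_fin] at this
    rw [← this]
    exact congrArg _ ((RingHom.map_det k.subtype _).trans (det_cj P _).symm)
  have e3 : (s ^ 5).val = ψ (g.val.det⁻¹ • g.val ^ 5) := by
    rw [Units.val_pow_eq_pow_val, e1, smul_pow, map_smul, map_pow, eq_inv_of_mul_eq_one_left e2]; rfl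
  let t : K := ⟨_, K.pow_mem h.mem' 5⟩
  have e4 : Polynomial.aeval t (g.val.det⁻¹ • g.val ^ 5).charpoly = 0 := Subtype.ext (by
    refine (Polynomial.aeval_algHom_apply (K.val.restrictScalars k) t _).symm.trans ?_
    change Polynomial.aeval (s ^ 5).val _ = 0
    rw [e3, Polynomial.aeval_algHom_apply, aeval_self_charpoly, map_zero])
  have hi : IsIntegral k t := ⟨_, charpoly_monic _, e4⟩
  have h1 := minpoly.natDegree_pos hi
  refine ⟨_, h1, (Polynomial.natDegree_le_of_dvd (minpoly.dvd k t e4) (charpoly_monic _).ne_zero).trans (by simp), ?_⟩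
  obtain ⟨f, hf⟩ := (minpoly.irreducible hi).natDegree_dvd_iff_dvd_X_pow_card_pow_sub_X.1 dvd_rfl
  have h2 := congrArg (Polynomial.aeval t) hf
  rw [map_mul, minpoly.aeval, zero_mul, map_sub, map_pow, Polynomial.aeval_X, sub_eq_zero] at h2
  refine orderOf_dvd_of_pow_eq_one (mul_right_cancel (b := s ^ 5) (Units.ext ?_))
  rw [pow_mul, ← pow_succ, Nat.sub_add_cancel (pow_pos Nat.card_pos _), one_mul, Units.val_pow_eq_pow_val]
  exact congrArg Subtype.val h2

theorem uni [Fintype F] {q : ℕ} [U.IsSq F q] {B : G5 F} (hM : M ≤ cjS B (similarityGroup (gform (U.cj q) 1))) :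
    orderOf s ∣ 5 * (q ^ 5 + 1) := by
  obtain ⟨c, hc⟩ := mem_similarityGroup_gform.1 (mem_cjS.1 (hM h.mem))
  have e := cj_coe B⁻¹ s
  rw [inv_inv] at e
  have h5 := mult_pow isUnit_one (by rw [← e, det_cj, mem_specialLinear.1 (h.le h.mem)]) hc
  have h1 : adj (U.cj q) B s.val = (c : F) • (s⁻¹).val := by
    have := congrArg transpose hc
    rw [mul_one, transpose_mul, transpose_transpose, transpose_smul, transpose_one, ← cT, ← e] at this
    have := congrArg (fun x => cj B x * (s⁻¹).val) this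
    simpa only [adj, map_mul, cj_cj_inv, map_smul, map_one, Units.mul_inv_cancel_right, smul_mul_assoc, one_mul] using this
  let K' : Subalgebra F (M5 F) :=
    { carrier := {k | adj (U.cj q) B k ∈ K}
      mul_mem' := fun {a b} ha hb => by
        change adj _ B _ ∈ K
        rw [adj, map_mul, cT_mul, map_mul]; exact K.mul_mem hb ha
      add_mem' := fun {a b} ha hb => by
        change adj _ B _ ∈ K
        rw [adj, map_add, cT_add, map_add]; exact K.add_mem ha hb
      algebraMap_mem' := fun c => by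
        change adj _ B _ ∈ K
        simpa [adj, Algebra.algebraMap_eq_smul_one, cT_smul, cT_one] using K.smul_mem K.one_mem _ }
  have h2 := adj_pow h.fld (fun x hx => fld_le (K' := K') h.fld h.mem' (h1.symm ▸ K.smul_mem (inv_mem_of h.mem') _ :
    adj (U.cj q) B s.val ∈ K) (pow_one s ▸ h.ne 1 (one_dvd _)) hx) h.mem'
  refine orderOf_dvd_of_pow_eq_one (Units.ext ?_)
  rw [mul_comm, pow_mul, pow_succ _ (q ^ 5), Units.val_pow_eq_pow_val, Units.val_mul, Units.val_pow_eq_pow_val, ← h2,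
    h1, smul_mul_assoc, Units.inv_mul, smul_pow, h5, one_pow, one_smul, Units.val_one]

end Sing

theorem exists_sing [Fintype F] (hK : IsFieldSubalgebra 5 K) {n : ℕ}
    (hn : n ∣ Fintype.card F ^ 4 + Fintype.card F ^ 3 + Fintype.card F ^ 2 + Fintype.card F + 1) :
    ∃ s ∈ subalgebraNormalizer K ⊓ S5 F, s.val ∈ K ∧ orderOf s = n := by
  obtain ⟨r, hr⟩ : ∃ r, Fintype.card F = r + 1 := ⟨_, (Nat.sub_add_cancel Fintype.card_pos).symm⟩
  have h0 : 0 < r := by have := Fintype.one_lt_card (α := F); omega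
  have e : Fintype.card F ^ 5 - 1 = (Fintype.card F - 1) *
      (Fintype.card F ^ 4 + Fintype.card F ^ 3 + Fintype.card F ^ 2 + Fintype.card F + 1) := by
    rw [hr, Nat.add_sub_cancel]; exact Nat.sub_eq_of_eq_add (by ring)
  obtain ⟨z, hz, h1, -⟩ := IsFieldSubalgebra.exists_orderOf hK (k := n) (e ▸ hn.mul_left _)
  have h2 := IsFieldSubalgebra.det_smul_one (K := K) hK hz
  obtain ⟨c, hc⟩ := hn
  rw [Fintype.card_fin, e, Nat.mul_div_cancel_left _ (by omega), hc, pow_mul, ← h1, pow_orderOf_eq_one, one_pow] at h2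
  have h3 : z.det = 1 := by simpa using congrFun (congrFun h2 0) 0
  obtain ⟨s, hs, rfl⟩ := hm_S5 h3
  refine ⟨s, ⟨fun k => ?_, hs⟩, hz, by rw [← orderOf_units, h1]⟩
  change _ ↔ cj s k ∈ K
  refine ⟨fun hk => by rwa [(cj_eq_iff s k k).2 (hK.comm _ hz _ hk)], fun hk => ?_⟩
  rwa [(cj s).injective ((cj_eq_iff s _ _).2 (hK.comm _ hz _ hk))] at hk

theorem mem_GU_of_pow [Fintype F] {q : ℕ} [U.IsSq F q] (hK : IsFieldSubalgebra 5 K)
    (hA : IsAdjointClosedFor (hermForm 5 F q) K) (hs : s.val ∈ K) (h : s ^ (q ^ 5 + 1) = 1) : s ∈ GU 5 F q := by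
  have := adj_pow (q := q) (B := 1) hK (fun x hx => by
    obtain ⟨y, hy, e⟩ := hA x hx
    simp only [herm_eq, gform_mulVec_left, gform_mulVec_right, mul_one, one_mul] at e
    convert hy
    ext i j
    rw [adj, inv_one, cj_one, cj_one, cT_apply, ← transpose_apply x, gform_inj e, map_apply, U.cj_cj]) hs
  rw [adj, inv_one, cj_one, cj_one] at this
  rw [mem_GU', this, ← pow_succ, ← Units.val_pow_eq_pow_val, h, Units.val_one]

end H19.T5
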