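import Mathlib
import Cfsg.Agent.Base
import Cfsg.Agent.Lib.Tab5.Singer

/-!
Subfield subgroups of `SU₅`.
-/

set_option autoImplicit false
set_option linter.style.haveILetI false

namespace H19.T5

open Matrix Cfsg Cfsg.Geo H10.Asch H11 Equiv
open H11.T3 (rt mem_rt card_rt cjk cjk_ne cjS_inf)
open scoped commutatorElement

variable {F : Type*} [Field F] {H M : Subgroup (G5 F)} {k k' : Subfield F}

theorem exists_smul_one [Finite F] (h2 : (2 : F) ≠ 0) {G : M5 F} (hG : IsUnit G) (hs : Gᵀ = G) :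
    ∃ (C : G5 F) (c : F), C.valᵀ * G * C.val = c • 1 := by
  have hd := ((isUnit_iff_isUnit_det _).1 hG).ne_zero
  obtain ⟨α, hα⟩ := FiniteField.exists_nonsquare (F := F) fun h => h2 (by
    exact_mod_cast h ▸ ringChar.Nat.cast_ringChar (R := F))
  obtain ⟨b, h1, h3, h4⟩ := H28.exists_basis_one_or_nonsquare h2 (Matrix.toBilin' (G.det • G)) (fun x y => by
    simp only [toBilin'_apply']
    rw [dotProduct_mulVec, ← mulVec_transpose, transpose_smul, hs, dotProduct_comm]) (fun x hx => by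
      by_contra h0
      obtain ⟨y, hy⟩ := ((nondeg_gform_iff (σ := RingHom.id F)).2 hG x h0).2
      refine hy ((mul_eq_zero.1 ?_).resolve_left hd)
      simpa [toBilin'_apply', gform, smul_mulVec] using hx y) (n := 4) (by simp) α hα
  set C : M5 F := (Matrix.of fun i => b i)ᵀ with hC
  have e : ∀ i j, (Cᵀ * (G.det • G) * C) i j = Matrix.toBilin' (G.det • G) (b i) (b j) := fun i j => by
    rw [toBilin'_apply', mul_assoc]
    simp [hC, mul_apply, mulVec, dotProduct, Finset.mul_sum, mul_assoc]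
  have e1 : Cᵀ * (G.det • G) * C = diagonal ![1, 1, 1, 1, Matrix.toBilin' (G.det • G) (b 4) (b 4)] := by
    ext i j
    rw [e]
    by_cases h : i = j
    · subst h
      rw [diagonal_apply_eq]
      fin_cases i <;> first | rfl | exact h3 _ (by decide)
    · rw [h1 i j h, diagonal_apply_ne _ h]
  have e2 := congrArg det e1
  rw [det_mul, det_mul, det_transpose, det_smul, det_diagonal, Fin.prod_univ_five] at e2
  simp only [Fintype.card_fin, cons_val, one_mul] at e2
  replace h4 := h4.resolve_right fun h => hα ⟨C.det * G.det ^ 3, by rw [← h]; exact e2.symm.trans (by ring)⟩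
  rw [show Matrix.toBilin' (G.det • G) (b 4) (b 4) = 1 from h4] at e1 e2
  refine ⟨GeneralLinearGroup.mkOfDetNeZero C fun e0 => by simp [e0] at e2, G.det⁻¹, ?_⟩
  rw [eq_inv_smul_iff₀ hd, ← smul_mul_assoc, ← mul_smul_comm]
  exact e1.trans (by ext i j; fin_cases i <;> simp [diagonal_apply, one_apply])

/-- Eichler transformations of the standard quadratic form -/
def ei (u w : Fin 5 → F) : M5 F := 1 + (2 : F) • (vecMulVec u w - vecMulVec w u) - (2 * (w ⬝ᵥ w)) • vecMulVec u u

theorem ei_mul {u w w' : Fin 5 → F} (h : u ⬝ᵥ u = 0) (h1 : u ⬝ᵥ w = 0) (h2 : u ⬝ᵥ w' = 0) :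
    ei u w * ei u w' = ei u (w + w') := by
  simp only [ei, mul_sub, sub_mul, mul_add, add_mul, mul_one, one_mul, smul_mul_assoc, mul_smul_comm,
    vecMulVec_mul_vecMulVec, h, h1, h2, dotProduct_comm w u, dotProduct_comm w' w, vecMulVec_smul, add_dotProduct,
    dotProduct_add, vecMulVec_add, add_vecMulVec]
  module

theorem ei_zero (u : Fin 5 → F) : ei u 0 = 1 := by simp [ei]

theorem ei_transpose (u w : Fin 5 → F) : (ei u w)ᵀ = ei u (-w) := by
  simp [ei, transpose_vecMulVec, vecMulVec_neg, neg_vecMulVec]; module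

/-- `M` contains the special orthogonal group over `k` -/
def Orw (M : Subgroup (G5 F)) (k : Subfield F) : Prop :=
  ∀ m : M5 F, (∀ i j, m i j ∈ k) → mᵀ * m = 1 → m.det = 1 → Hm M m

namespace Orw

variable (h : Orw M k)
include h

theorem tor : Tor M (rt F 2) := fun d σ h0 h1 h2 => by
  have e := fun i => sq_eq_one_iff.1 (mem_rt.1 (h0 i))
  refine h _ (fun i j => ?_) ?_ (by rw [det_mo, h2, ← Units.coe_prod, h1]; simp)
  · rw [mo, of_apply]; split_ifs
    · rcases e j with e | e <;> simp [e]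
    · exact k.zero_mem
  · refine (mo_herm (RingHom.id F)).trans ?_
    simp only [RingHom.id_apply, ← sq, fun i => mem_rt.1 (h0 i), diagonal_one]

theorem exists_hom [Finite F] (h2 : (2 : F) ≠ 0) : ∃ a b : k, a ^ 2 + b ^ 2 = -1 ∧ ∃ f : Multiplicative (k × k) →* M,
    ∀ x, (f x).1.val = (ei ![a, b, 1, 0, 0] ![0, 0, 0, x.toAdd.1, x.toAdd.2]).map k.subtype := by
  haveI : NeZero (2 : k) := ⟨fun e => h2 (congrArg Subtype.val e)⟩
  obtain ⟨a, b, e⟩ := H28.exists_binary_repr (two_ne_zero (α := k)) one_ne_zero one_ne_zero (-1)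
  have mul : ∀ x y z t : k, ei ![a, b, 1, 0, 0] ![0, 0, 0, x, y] * ei ![a, b, 1, 0, 0] ![0, 0, 0, z, t] =
      ei ![a, b, 1, 0, 0] ![0, 0, 0, x + z, y + t] := fun x y z t => by
    rw [ei_mul (by simp; linear_combination e) (by simp) (by simp)]; simp
  have orth : ∀ x y : k, (ei ![a, b, 1, 0, 0] ![0, 0, 0, x, y])ᵀ * ei ![a, b, 1, 0, 0] ![0, 0, 0, x, y] = 1 :=
    fun x y => by rw [ei_transpose, ei_mul (by simp; linear_combination e) (by simp) (by simp), neg_add_cancel, ei_zero]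
  choose g hg eg using fun x : k × k => h ((ei ![a, b, 1, 0, 0] ![0, 0, 0, x.1, x.2]).map k.subtype)
    (fun i j => SetLike.coe_mem _) (by rw [← transpose_map, ← Matrix.map_mul, orth]; simp) (by
      have := congrArg det (orth (x.1 / 2) (x.2 / 2))
      rw [det_mul, det_transpose, ← det_mul, mul, add_halves, add_halves, det_one] at this
      rw [← RingHom.mapMatrix_apply, ← RingHom.map_det, this, map_one])
  exact ⟨a, b, by simpa using e, MonoidHom.mk' (fun x => ⟨g x.toAdd, hg _⟩) fun x y => Subtype.ext (Units.ext (by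
    simp only [Subgroup.coe_mul, Units.val_mul, eg, ← Matrix.map_mul, mul]; rfl)), fun x => eg _⟩

theorem exists_inj [Finite F] (h2 : (2 : F) ≠ 0) : ∃ f : Multiplicative (k × k) →* M, Function.Injective f := by
  obtain ⟨a, b, -, f, hf⟩ := h.exists_hom h2
  refine ⟨f, (injective_iff_map_eq_one f).2 fun x e => ?_⟩
  have := hf x
  rw [e] at this
  have h3 : (2 : k) ≠ 0 := fun e => h2 (congrArg Subtype.val e)
  exact Multiplicative.toAdd.injective (Prod.ext (by simpa [ei, h3] using congrFun (congrFun this 2) 3)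
    (by simpa [ei, h3] using congrFun (congrFun this 2) 4))

theorem card_dvd [Finite F] (h2 : (2 : F) ≠ 0) : Nat.card k ^ 2 ∣ Nat.card M := by
  obtain ⟨f, hf⟩ := h.exists_inj h2
  have := Subgroup.card_dvd_of_injective f hf
  exact sq (Nat.card k) ▸ Nat.card_prod k k ▸ this

theorem mon [Finite F] (h2 : (2 : F) ≠ 0) {B : G5 F} (hM : M ≤ cjS B (Mon F)) : Nat.card k ^ 2 ∣ 120 := by
  obtain ⟨f, hf⟩ := h.exists_inj h2
  obtain ⟨π, hπ⟩ := exists_pi hM
  obtain ⟨p, hp⟩ := CharP.exists F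
  haveI : Fact p.Prime := ⟨CharP.char_is_prime F p⟩
  have := Subgroup.card_dvd_of_injective (π.comp f) ((injective_iff_map_eq_one _).2 fun x e => hf ?_)
  · rw [show Nat.card (Perm (Fin 5)) = 120 by simp [Fintype.card_perm]; rfl] at this
    exact sq (Nat.card k) ▸ Nat.card_prod k k ▸ this
  obtain ⟨d, hd⟩ := hπ (f x)
  rw [show π (f x) = 1 from e, mo_one] at hd
  have h1 : (f x).1.val ^ p = 1 := by
    rw [← Units.val_pow_eq_pow_val, ← Subgroup.coe_pow, ← map_pow, show x ^ p = 1 from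
      Multiplicative.toAdd.injective (by simp [← Nat.cast_smul_eq_nsmul k]), map_one]; rfl
  rw [hd, ← map_pow, map_eq_one_iff _ (cj B).injective, diagonal_pow, ← diagonal_one, diagonal_eq_diagonal_iff] at h1
  refine Subtype.ext (Units.ext ?_)
  rw [hd, show d = fun _ => 1 from funext fun i => frobenius_inj F p (by simpa [frobenius_def] using h1 i)]
  simp

theorem le_sub [Finite F] (h2 : (2 : F) ≠ 0) {P : G5 F} (hM : M ≤ subfieldSubgroup k' P) : k ≤ k' := by
  obtain ⟨a, b, e, f, hf⟩ := h.exists_hom h2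
  have e' : (a : F) ^ 2 + b ^ 2 = -1 := by simpa using congrArg Subtype.val e
  have T := h.tor
  have key : ∀ x : k, 2 + 8 * (x : F) ^ 2 - 4 * x ∈ k' := fun x => by
    have h1 : Hm ⁅M, M⁆ (f (.ofAdd (x, 0)) * f (.ofAdd (x, 0))).1.val :=
      Hm.comm ⟨_, (f (.ofAdd (x, 0))).2, rfl⟩ (T ![1, 1, 1, -1, -1] 1 (fun i => by fin_cases i <;> simp [mem_rt])
        (by simp [Fin.prod_univ_five]) (map_one _)) (by
          have : mo (fun i => ((![1, 1, 1, -1, -1] i : Fˣ) : F)) 1 * (f (.ofAdd (x, 0))).1.val =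
              (f (.ofAdd (x, 0))⁻¹).1.val * mo (fun i => ((![1, 1, 1, -1, -1] i : Fˣ) : F)) 1 := by
            rw [hf, hf, mo_one]
            ext i j
            fin_cases i <;> fin_cases j <;> simp [ei]
          rw [this, ← mul_assoc, ← Units.val_mul, ← Subgroup.coe_mul, map_inv, mul_inv_cancel_right])
    have h3 : Hm ⁅M, M⁆ (mo (fun _ => (1 : F)) (swap 2 3 * swap 2 4)) :=
      Hm.comm (T.perm (σ := swap 2 4 * swap 2 3) (by decide)) (T.perm (σ := swap 0 1 * swap 3 4) (by decide)) (by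
        simp only [mo_mul]; congr 1; exacts [by simp, by decide])
    convert tr_sub hM (h1.mul h3) using 1
    rw [← map_mul, hf]
    simp only [trace, diag_apply, mul_mo, (by decide : ∀ i, (swap 2 3 * swap 2 4 : Perm (Fin 5)) i = ![0, 1, 4, 2, 3] i)]
    simp [Fin.sum_univ_five, ei, one_apply, show ((2 : k) : F) = 2 from rfl]
    linear_combination 8 * (x : F) ^ 2 * e'
  intro x hx
  have h8 : (8 : F) ≠ 0 := by rw [show (8 : F) = 2 ^ 3 by norm_num]; exact pow_ne_zero _ h2
  convert div_mem (sub_mem (key (-⟨x, hx⟩)) (key ⟨x, hx⟩)) (natCast_mem k' 8) using 1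
  push_cast; field_simp; ring

end Orw

section su

variable [Fintype F] {q : ℕ} [U.IsSq F q] {P : G5 F}

theorem exists_gram (h : IsFormRationalStructure (hermForm 5 F q) k 1 P) :
    ∃ G : M5 k, IsUnit G ∧ G.map k.subtype = P.valᵀ * P.val.map (U.cj q) ∧ cT (cjk q k) G = G := by
  have key : ∀ i j, (P.valᵀ * P.val.map (U.cj q)) i j ∈ k := fun i j => by
    have := h (Pi.single i 1) (Pi.single j 1) (fun l => by rw [Pi.single_apply]; split_ifs <;> simp)
      fun l => by rw [Pi.single_apply]; split_ifs <;> simp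
    rwa [one_mul, herm_eq, gform_mulVec, gform_single, mul_one] at this
  refine ⟨Matrix.of fun i j => ⟨_, key i j⟩, (isUnit_iff_isUnit_det _).2 (IsUnit.mk0 _ fun e => ?_), rfl, ?_⟩
  · have h1 := (isUnit_iff_isUnit_det _).1 (isUnit_transpose_mul_map (U.cj q) isUnit_one P)
    rw [mul_one] at h1
    have := congrArg k.subtype e
    rw [RingHom.map_det, map_zero] at this
    exact h1.ne_zero this
  · ext i j
    change U.cj q ((P.valᵀ * P.val.map (U.cj q)) j i) = (P.valᵀ * P.val.map (U.cj q)) i j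
    simp [mul_apply, U.cj_cj, mul_comm]

theorem nf5_aux {G : M5 k} (e : G.map k.subtype = P.valᵀ * P.val.map (U.cj q)) {C : G5 k} {c : k}
    (hC : C.valᵀ * G * C.val.map (cjk q k) = c • 1) :
    ∃ B ∈ GU 5 F q, subfieldSubgroup k P = cjS B (subfieldSubgroup k 1) := by
  obtain ⟨l, hl⟩ := exists_GU (q := q) (B := P * GeneralLinearGroup.map k.subtype C) (c := c) (by
    have := congrArg (fun m : M5 k => (m.map k.subtype)ᵀ) hC
    simp only [Matrix.map_mul, e, Matrix.map_smul' _ _ _ (map_mul _), Matrix.map_one _ (map_zero _) (map_one _),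
      transpose_smul, transpose_one, transpose_mul, transpose_transpose] at this
    rw [Units.val_mul, cT_mul, mul_assoc, ← mul_assoc _ P.val]
    exact this)
  exact ⟨_, hl, by rw [cjS_sub, mul_one, ← mul_assoc, (commute_sc l P).eq, mul_assoc, sub_mul_eq]⟩

theorem nf5 {r : ℕ} (hr : Odd r) (hk : Fintype.card F = Nat.card k ^ r)
    (h : IsFormRationalStructure (hermForm 5 F q) k 1 P) :
    ∃ B ∈ GU 5 F q, subfieldSubgroup k P = cjS B (subfieldSubgroup k 1) := by
  obtain ⟨G, hG, e, e'⟩ := exists_gram h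
  obtain ⟨C, hC⟩ := exists_orth (cjk_ne (q := q) hr hk) (fun a => Subtype.ext (U.cj_cj a.1)) hG e'
  exact nf5_aux e (hC.trans (one_smul _ _).symm)

theorem nf5o (h2 : (2 : F) ≠ 0) (h : IsFormRationalStructure (hermForm 5 F q) (U.fixedField F q) 1 P) :
    ∃ B ∈ GU 5 F q, subfieldSubgroup (U.fixedField F q) P = cjS B (subfieldSubgroup (U.fixedField F q) 1) := by
  obtain ⟨G, hG, e, e'⟩ := exists_gram h
  have h1 : cjk q (U.fixedField F q) = RingHom.id _ := RingHom.ext fun x => Subtype.ext x.2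
  rw [h1] at e'
  obtain ⟨C, c, hC⟩ := exists_smul_one (fun e => h2 (congrArg Subtype.val e)) hG e'
  exact nf5_aux e (C := C) (by rw [h1]; exact hC)

theorem sub_le_sim : subfieldSubgroup (U.fixedField F q) 1 ⊓ SU5 F q ≤ similarityGroup (gform (RingHom.id F) 1) := by
  intro g hg
  obtain ⟨μ, h0, h⟩ := mem_subfieldSubgroup_iff.1 hg.1
  rw [inv_one, cj_one] at h
  have h1 : U.cj q μ ≠ 0 := U.cj_ne_zero.2 h0
  have h2 : g.val = (U.cj q μ / μ) • g.val.map (U.cj q) := by
    ext i j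
    have := U.mem_fixedField.1 (h i j)
    rw [map_mul] at this
    rw [Matrix.smul_apply, map_apply, smul_eq_mul, div_mul_eq_mul_div, this, mul_div_cancel_left₀ _ h0]
  refine mem_similarityGroup_gform.2 ⟨Units.mk0 _ (div_ne_zero h1 h0), ?_⟩
  change g.valᵀ * 1 * g.val = _
  conv_lhs => enter [2]; rw [h2]
  rw [mul_one, mul_smul_comm, mem_GU.1 hg.2.1]
  rfl

theorem orw_of (h : subfieldSubgroup (U.fixedField F q) 1 ⊓ SU5 F q ≤ M) : Orw M (U.fixedField F q) :=
  fun m h1 h2 h3 => ((hm_sub (by simp [h3]) h1).inf ((hm_GU (by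
    rwa [show m.map (U.cj q) = m from Matrix.ext h1])).inf (hm_S5 h3))).mono h

variable {q₀ : ℕ} (hk : Nat.card k = q₀ ^ 2) (hp : ∀ x ∈ k, x ^ q = x ^ q₀)
include hk

omit [U.IsSq F q] in
theorem card_mu : Nat.card (rt F (q₀ + 1)) = q₀ + 1 := by
  refine card_rt (Dvd.dvd.trans ⟨q₀ - 1, (Nat.sq_sub_sq q₀ 1)⟩ ?_)
  have := Subgroup.card_dvd_of_injective (Units.map k.subtype.toMonoidHom) (Units.map_injective Subtype.val_injective)
  rwa [Nat.card_units, Nat.card_units, hk, Nat.card_eq_fintype_card] at this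

omit [U.IsSq F q] in
theorem mem_of_rt {x : Fˣ} (hx : x ∈ rt F (q₀ + 1)) : (x : F) ∈ k := by
  have : 1 ≤ q₀ ^ 2 := hk ▸ Nat.card_pos
  rw [H98.D3.mem_subfield_iff, hk, show q₀ ^ 2 = (q₀ + 1) * (q₀ - 1) + 1 by
    rw [← Nat.sq_sub_sq, one_pow, Nat.sub_add_cancel this], pow_succ, pow_mul, mem_rt.1 hx, one_pow, one_mul]

omit [U.IsSq F q] in
theorem le_of_rt (h : ∀ x ∈ rt F (q₀ + 1), (x : F) ∈ k') : k ≤ k' := by
  letI := (Subfield.inclusion (inf_le_left : k ⊓ k' ≤ k)).toAlgebra
  have h1 := Module.natCard_eq_pow_finrank (K := (k ⊓ k' :)) (V := k)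
  have h2 : q₀ + 1 ≤ Nat.card (k ⊓ k' :) := (card_mu hk).ge.trans (Nat.card_le_card_of_injective
    (fun x : rt F (q₀ + 1) => (⟨x.1, mem_of_rt hk x.2, h _ x.2⟩ : (k ⊓ k' :))) fun x y e =>
      Subtype.ext (Units.ext (congrArg Subtype.val e)))
  have h3 : Module.finrank (k ⊓ k' :) k = 1 := by
    by_contra hc
    have := Module.finrank_pos (R := (k ⊓ k' :)) (M := k)
    have := Nat.pow_le_pow_right (n := Nat.card (k ⊓ k' :)) (by omega) (show 2 ≤ Module.finrank (k ⊓ k' :) k by omega)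
    nlinarith
  intro x hx
  refine ((H98.D3.mem_subfield_iff (k ⊓ k') x).2 ?_).2
  rwa [← pow_one (Nat.card _), ← h3, ← h1, ← H98.D3.mem_subfield_iff]

include hp

theorem tor_uni : Tor (subfieldSubgroup k 1 ⊓ SU5 F q) (rt F (q₀ + 1)) :=
  (tor_sub fun _ => mem_of_rt hk).inf (tor_SU fun x hx => mem_rt.2 (by
    rw [pow_succ, hp _ (mem_of_rt hk hx), ← pow_succ, mem_rt.1 hx]))

theorem exists_tg : ∃ T ≤ subfieldSubgroup k 1 ⊓ SU5 F q, TG T := by
  haveI := Fintype.ofFinite k
  haveI : U.IsSq k q₀ := ⟨by rw [← Nat.card_eq_fintype_card, hk]⟩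
  let φ := (GeneralLinearGroup.map k.subtype).comp (suToGL 5 k q₀)
  have hφ : ∀ s, (φ s).val = s.1.1.map k.subtype := fun s => rfl
  refine ⟨φ.range, ?_, TG.of_hom φ (U.commutator_SU_eq_top (by norm_num) (by omega))
    (fun N _ => U.normal_le_center_or (by norm_num) (by omega) N) ?_ ?_⟩
  · rintro _ ⟨s, rfl⟩
    refine ⟨mem_subfieldSubgroup_iff.2 ⟨1, one_ne_zero, fun i j => by
      rw [inv_one, cj_one, one_mul, hφ]; exact (s.1.1 i j).2⟩, ?_, mem_specialLinear.2 ?_⟩
    · have := congrArg (fun m => m.map k.subtype) (mem_GU.1 (suToGL_mem s).1)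
      simp only [Matrix.map_mul, Matrix.map_one _ (map_zero _) (map_one _)] at this
      refine mem_GU.2 (Eq.trans ?_ this)
      congr 1
      ext i j
      exact hp _ (s.1.1 i j).2
    · rw [hφ, ← RingHom.mapMatrix_apply, ← RingHom.map_det, s.1.2, map_one]
  · have T : Tor φ.range (rt F (q₀ + 1)) := fun d σ h0 h1 h2 => by
      obtain ⟨g, hg, e⟩ := tor_SU (F := k) (q := q₀) le_rfl
        (fun i => Units.mk0 ⟨d i, mem_of_rt hk (h0 i)⟩ fun e => (d i).ne_zero (congrArg Subtype.val e)) σ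
        (fun i => mem_rt.2 (Subtype.ext (mem_rt.1 (h0 i)))) (Units.ext (Subtype.ext (by
          simpa using congrArg Units.val h1))) h2
      obtain ⟨s, rfl⟩ := range_suToGL.ge hg
      refine ⟨_, ⟨s, rfl⟩, ?_⟩
      rw [hφ, show s.1.1 = _ from e]
      ext i j
      simp only [mo, map_apply, of_apply]
      split_ifs <;> rfl
    haveI := Finite.one_lt_card_iff_nontrivial.1
      (show 1 < Nat.card (rt F (q₀ + 1)) by have := U.two_le_q k q₀; rw [card_mu hk]; omega)
    obtain ⟨a, ha⟩ := exists_ne (1 : rt F (q₀ + 1))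
    exact T.irr a.2 fun e => ha (Subtype.ext e)
  · obtain ⟨τ, hτ, u, L, h⟩ := (tg_su (F := k) (q := q₀) (n := 5) (by norm_num) (by omega)).tv
    obtain ⟨s, rfl⟩ := range_suToGL.ge hτ
    let l : Fin 5 → F := fun j => L (Pi.single j 1)
    refine ⟨_, ⟨s, rfl⟩, fun i => u i, dotProductBilin F F l, fun e => h.ne (funext fun i => Subtype.ext (congrFun e i)),
      fun e => h.ne' (LinearMap.pi_ext' fun j => LinearMap.ext_ring (Subtype.ext ?_)), ?_, fun v => ?_⟩
    · simpa [l] using LinearMap.congr_fun e (Pi.single j 1)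
    · have := congrArg Subtype.val h.zero
      rw [← linear_eq_dot] at this
      simpa [l, dotProduct] using this
    · rw [hφ, show s.1.1 = _ from h.coe_eq, Matrix.map_add _ (map_add _), Matrix.map_one _ (map_zero _) (map_one _),
        add_mulVec, one_mulVec]
      ext i
      simp [l, mulVec, dotProduct, vecMulVec_apply, Finset.mul_sum, mul_comm, mul_left_comm]

end su

end H19.T5
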