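import Mathlib
import Cfsg.Agent.Base
import Cfsg.Agent.Lib.Four.Point

/-!
The stabiliser of a non-degenerate subspace of a unitary space, in small dimension.
-/

set_option autoImplicit false
set_option linter.unusedSectionVars false

namespace H19.T5

open Module Cfsg H28 H97 H98 H28.Four

section

variable {F V : Type*} [Field F] [Finite F] [AddCommGroup V] [Module F V] {σ : F →+* F}
  {P : PQ F V σ} [FiniteDimensional F V]

theorem isMaximalIn_plane (U : Uni P) {W : Submodule F V} (hW : W ⊓ perp P W = ⊥) (h2 : 2 ≤ finrank F W)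
    (h3 : finrank F W < finrank F (perp P W)) : Geo.IsMaximalIn (EG P) (stab W ⊓ EG P) := by
  have hP := U.nd
  have hY := perp_nondeg hP hW
  refine isMaximalIn_of inf_le_right (fun hle => U.isoK.not_EG_le_stab hP U.four ?_ ?_
    (hle.trans inf_le_left)) fun M hH hM ⟨g, hg, hg'⟩ => ?_
  · rintro rfl
    simp at h2
  · rintro rfl
    have := Submodule.finrank_mono (le_top (a := perp P (⊤ : Submodule F V)))
    omega
  have hI : ∀ g ∈ M, g ∈ P.Isom := fun g hg => EG_le_isom (hM hg)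
  have irr := irr_of_lambda hP hY U.lam
  obtain ⟨a₀, ha₀, qa₀, ha₀'⟩ := Low.exists_sing_notMem U.isoK irr (by omega)
    (Z := (perp P W).comap (g : V →ₗ[F] V)) fun hle =>
      hg' ⟨stab_of_perp hP (hI g hg) (mem_stab_of_maps hle), hM hg⟩
  obtain ⟨b₀, hb₀, qb₀, hb₀'⟩ := Low.exists_sing_notMem U.isoK irr (by omega)
    (Z := W.comap (g : V →ₗ[F] V)) (not_swap_of_lt h3 g)
  obtain ⟨x, hx, qx, hx1, hx2⟩ : ∃ x ∈ perp P W, P.q x ∈ P.Λ ∧ g x ∉ perp P W ∧ g x ∉ W := by
    by_cases h1 : g a₀ ∈ W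
    swap
    · exact ⟨a₀, ha₀, qa₀, ha₀', h1⟩
    by_cases h2 : g b₀ ∈ perp P W
    swap
    · exact ⟨b₀, hb₀, qb₀, h2, hb₀'⟩
    refine ⟨a₀ + b₀, Submodule.add_mem _ ha₀ hb₀, sing_add qa₀ qb₀ ?_, fun h3 => ha₀' ?_,
      fun h3 => hb₀' ?_⟩
    · rw [← (hI g hg).1]; exact h2 _ h1
    · exact (Submodule.add_mem_iff_left _ h2).1 (map_add g a₀ b₀ ▸ h3)
    · exact (Submodule.add_mem_iff_right _ h1).1 (map_add g a₀ b₀ ▸ h3)
  have hin : ∀ u ∈ perp P W, P.q u ∈ P.Λ → Rt P M u := fun u hu hq => rt_of_eu hq fun l hl =>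
    (has_eu_stab_of_perp (w := 0) hq (by simp) (P.Λ.sub_mem hl P.q_zero) hu (Submodule.zero_mem _)).mono hH
  have hin' : ∀ u ∈ W, P.q u ∈ P.Λ → Rt P M u := fun u hu hq => rt_of_eu hq fun l hl =>
    (has_eu_stab_of_mem' (w := 0) hq (by simp) (P.Λ.sub_mem hl P.q_zero) hu (Submodule.zero_mem _)).mono hH
  have hB : ∀ y ∈ perp P W, ∀ w ∈ W, P.B (y + w) (y + w) = 0 → P.B y y = -P.B w w := fun y hy w hw h => by
    simp only [map_add, LinearMap.add_apply, hy w hw, mem_perp'.1 hy w hw] at h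
    linear_combination h
  have key : ∀ y ∈ perp P W, ∀ w ∈ W, ∀ y' ∈ perp P W, ∀ w' ∈ W, y ≠ 0 → w ≠ 0 → y' ≠ 0 → w' ≠ 0 →
      P.B y' y' = P.B y y → P.B w' w' = P.B w w → Rt P M (y + w) → Rt P M (y' + w') :=
    fun y hy w hw y' hy' w' hw' y0 w0 y0' w0' e1 e2 h => by
    obtain ⟨k, hk, sk, ek, fk⟩ := exists_isom_stab_apply_eq hP hY hy hy' y0 y0' (U.lmax.q_sub e1)
    obtain ⟨l, hl, sl, el, fl⟩ := exists_isom_stab_apply_eq hP hW hw hw' w0 w0' (U.lmax.q_sub e2)
    obtain ⟨z, hz, hyz, hzz⟩ := U.exists_nonsing_perp hY hy (Or.inl (by omega))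
    obtain ⟨r, -, hr, hkr⟩ := U.fix hzz (k * l) (P.Isom.mul_mem hk hl)
    have a1 : ∀ w ∈ W, r w = w := fun w hw => hr w (mem_perp_singleton.2 (mem_perp'.1 hz w hw))
    have := h.apply (hH ⟨mul_mem (mul_mem (stab_of_perp hP hk sk) sl) (mem_stab_of_fix a1), hkr⟩) (EG_le_isom hkr)
    rwa [map_add, le_mul_apply, le_mul_apply, le_mul_apply, le_mul_apply, a1 w hw,
      hr y (mem_perp_singleton.2 (P.eq_zero_symm hyz)), fl y hy, ek, el, fk w' (le_perp_perp W hw')] at this
  have kB : ∀ y ∈ perp P W, ∀ w ∈ W, P.B w w ≠ 0 → P.B y y = -P.B w w → Rt P M (y + w) →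
      ∀ y' ∈ perp P W, ∀ w' ∈ W, P.B w' w' ≠ 0 → P.B y' y' = -P.B w' w' → Rt P M (y' + w') :=
    fun y hy w hw n e h y' hy' w' hw' n' e' => by
    obtain ⟨a, ha⟩ := U.exists_norm n (U.symm w' w')
    have ha' : P.B (a • y) (a • y) = P.B y' y' := by
      rw [e', ← ha]; simp only [B_smul_left, map_smul, smul_eq_mul, e]; ring
    have hne : ∀ x, P.B x x ≠ 0 → x ≠ 0 := by
      rintro _ h rfl
      simp at h
    refine key _ ((perp P W).smul_mem a hy) _ (W.smul_mem a hw) y' hy' w' hw' (hne _ ?_) (hne _ ?_) (hne _ ?_)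
      (hne _ n') ha'.symm ha.symm (smul_add a y w ▸ h.smul a)
    · rwa [ha', e', neg_ne_zero]
    · rwa [ha]
    · rwa [e', neg_ne_zero]
  obtain ⟨e, f, he, hf, hef, eW, fW⟩ := U.isoK.exists_pair_in hP hY (Y := ⊥) bot_le (by rw [perp_perp hP]; simpa)
  obtain ⟨e', f', he', hf', hef', eY, fY⟩ := U.isoK.exists_pair_in hP hW (Y := ⊥) bot_le (by simp; omega)
  rw [sup_bot_eq] at eY fY
  rw [sup_bot_eq, perp_perp hP] at eW fW
  have hfe : P.B f e = 1 := by rw [← U.symm, hef, map_one]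
  have hfe' : P.B f' e' = 1 := by rw [← U.symm, hef', map_one]
  rw [U.sing_iff] at he hf he' hf'
  have ne : ∀ {a b : V}, P.B a b = 1 → a ≠ 0 := by
    rintro _ _ h rfl
    simp at h
  obtain ⟨c, hc, hc0⟩ := U.lam
  replace hc : σ c = -c := eq_neg_of_add_eq_zero_right (U.mem_lam.1 hc)
  obtain ⟨t, ht⟩ := U.exists_tr
  replace ht : σ t = 1 - t := eq_sub_of_add_eq' ht
  have o1 : ∀ y ∈ perp P W, ∀ w ∈ W, P.B y w = 0 := fun y hy w hw => mem_perp'.1 hy w hw
  have AB : Rt P M (e' + e) → ∀ y' ∈ perp P W, ∀ w' ∈ W, P.B w' w' ≠ 0 → P.B y' y' = -P.B w' w' →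
      Rt P M (y' + w') := fun h => by
    have b0 : t / c - 1 ≠ 0 := fun h0 => by
      rw [sub_eq_zero, div_eq_one_iff_eq hc0] at h0
      rw [h0, hc] at ht
      exact one_ne_zero (by linear_combination -ht)
    have h1 := (key _ eY _ eW ((t / c - 1) • f') ((perp P W).smul_mem _ fY) f fW (ne hef') (ne hef)
      (smul_ne_zero b0 (ne hfe')) (ne hfe) (by simp [hf', he']) (by rw [he, hf]) h).qrefl hP h (c := c)
      (U.valid_iff.2 (by simp [he, he', hc, o1 _ eY _ eW, eY _ eW]))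
    refine kB ((t / c - 1) • f' + t • e') (add_mem ((perp P W).smul_mem _ fY) ((perp P W).smul_mem _ eY))
      (f + t • e) (add_mem fW (W.smul_mem _ eW)) ?_ ?_ ?_
    · simp [he, hf, hef, hfe, ht]
    · simp only [B_smul_left, he, hf, hef, hfe, ht, he', hf', hef', hfe', map_add, LinearMap.add_apply, map_smul,
        smul_eq_mul, map_sub, map_div₀, hc, map_one]
      field_simp
      ring
    · convert h1 using 1
      simp only [map_add, LinearMap.add_apply, map_smul, smul_eq_mul, hef, hef', o1 _ eY _ fW, fY _ eW]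
      match_scalars <;> field_simp <;> ring
  have BA : (∀ y' ∈ perp P W, ∀ w' ∈ W, P.B w' w' ≠ 0 → P.B y' y' = -P.B w' w' → Rt P M (y' + w')) →
      Rt P M (e' + e) := fun h => by
    obtain ⟨z, hz, hez, hzz⟩ := U.exists_nonsing_perp hY eY (Or.inl (by omega))
    have hze := P.eq_zero_symm hez
    have m := add_mem fW (W.smul_mem (-(P.B z z * t)) eW)
    have n : P.B (f + -(P.B z z * t) • e) (f + -(P.B z z * t) • e) = -P.B z z := by
      simp only [B_smul_left, he, hf, hef, hfe, ht, map_add, LinearMap.add_apply, map_smul, smul_eq_mul, map_neg,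
        map_mul, U.symm]
      ring
    have n1 : P.B e (f + -(P.B z z * t) • e) = 1 := by simp [he, hef]
    have n2 : P.B (f + -(P.B z z * t) • e) e = 1 := by simp [he, hfe]
    generalize f + -(P.B z z * t) • e = w at m n n1 n2
    have n3 : P.B (e - c • w) (e - c • w) = c ^ 2 * P.B z z := by
      simp only [B_smul_left, he, map_sub, LinearMap.sub_apply, map_smul, smul_eq_mul, hc, n, n1, n2]
      ring
    convert (h (e' - c • z) (sub_mem eY ((perp P W).smul_mem _ hz)) (e - c • w) (sub_mem eW (W.smul_mem _ m))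
      (by rw [n3]; exact mul_ne_zero (pow_ne_zero _ hc0) hzz) (by
        rw [n3]
        simp only [B_smul_left, he', map_sub, LinearMap.sub_apply, map_smul, smul_eq_mul, hc, hez, hze]
        ring)).qrefl hP (h z hz w m (by rwa [n, neg_ne_zero]) (by rw [n, neg_neg])) (c := c)
      (U.valid_iff.2 (by simp [hc, n, o1 _ hz _ m, hz _ m])) using 1
    simp only [map_add, map_sub, LinearMap.add_apply, map_smul, smul_eq_mul, hze, n, n2, o1 _ hz _ m, hz _ m,
      o1 _ hz _ eW, eY _ m]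
    module
  have h0 : Rt P M (e' + e) := by
    obtain ⟨y, hy, w, hw, e1⟩ := H12G.exists_decomp hW (g x)
    have h4 := (hin x hx qx).apply hg (hI g hg)
    have h5 := U.sing_iff.1 (isom_q (hI g hg) qx)
    rw [e1] at h4 h5 hx1 hx2
    have h6 := hB y hy w hw h5
    by_cases h7 : P.B w w = 0
    · exact key y hy w hw _ eY _ eW (by rintro rfl; simp [hw] at hx2) (by rintro rfl; simp [hy] at hx1) (ne hef')
        (ne hef) (by rw [h6, h7, he', neg_zero]) (by rw [h7, he]) h4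
    · exact BA (kB y hy w hw h7 h6 h4)
  refine EG_le_of_rt U fun u hu => ?_
  obtain ⟨y, hy, w, hw, rfl⟩ := H12G.exists_decomp hW u
  have h6 := hB y hy w hw (U.sing_iff.1 hu)
  rcases eq_or_ne y 0 with rfl | y0
  · exact hin' _ (by simpa using hw) hu
  rcases eq_or_ne w 0 with rfl | w0
  · exact hin _ (by simpa using hy) hu
  by_cases h7 : P.B w w = 0
  · exact key _ eY _ eW y hy w hw (ne hef') (ne hef) y0 w0 (by rw [h6, h7, he', neg_zero]) (by rw [h7, he]) h0
  · exact AB h0 y hy w hw h7 h6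

end

theorem nondeg_SU {F : Type*} [Field F] [Fintype F] {q n : ℕ} [H11.U.IsSq F q] (hn : 4 ≤ n)
    (W : Submodule F (Fin n → F)) (hW0 : W ≠ ⊥) (hW : Geo.IsNondegenerateOn (hermForm n F q) W)
    (hdim : 2 * finrank F W < n) : Geo.IsMaximalIn (GU n F q ⊓ Geo.specialLinear (Fin n) F)
      (Geo.subspaceStabilizer W ⊓ (GU n F q ⊓ Geo.specialLinear (Fin n) F)) := by
  rw [SU_eq (by omega), subspaceStabilizer_eq, ← pull_inf]
  rw [nondegOn_u] at hW
  have h1 := finrank_perp (uP_nd (F := F) (n := n) (q := q)) W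
  simp only [Module.finrank_fintype_fun_eq_card, Fintype.card_fin] at h1
  by_cases h : finrank F W ≤ 1
  · exact isMaximalIn_pull (isMaximalIn_point_uni (uni_uP hn) hW hW0 h)
  · exact isMaximalIn_pull (isMaximalIn_plane (uni_uP hn) hW (by omega) (by omega))

end H19.T5
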